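import Cfsg.Agent.H7.Card
import Cfsg.Agent.H7.Cox
import Cfsg.Agent.H8.Mask

/-! Generation of Chevalley groups by two elements. -/

set_option autoImplicit false
set_option linter.unusedSectionVars false

namespace Cfsg.Agent.H7

open Cfsg.Lie Cfsg.Agent.H8

theorem gen_core {G K : Type*} [Group G] [Field K] {H : Subgroup G} (co : G → K → Prop)
    (hmul : ∀ g g' s t, co g s → co g' t → co (g * g') (s + t)) (hinv : ∀ g s, co g s → co g⁻¹ (-s))
    {h h' z v : G} {a a' : K} (h1 : ∀ g s, co g s → co (h * g * h⁻¹) (a * s))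
    (h2 : ∀ g s, co g s → co (h' * g * h'⁻¹) (a' * s)) (hc : Commute h h') (hv : ∀ g s, co g s → Commute v g)
    (hv' : Commute v h) (hz : co z 1) (hh : h ∈ H) (hb : z * v * h' * (z * v)⁻¹ ∈ H)
    (ha : ∀ t ≠ 0, ∃ k : ℕ, t = a ^ k) (ha1 : a ≠ 1) (ha' : a' ≠ 1) (t : K) : ∃ g ∈ H, co g t := by
  have h3 := hmul _ _ _ _ (hinv _ _ (h1 _ _ hz)) hz
  have h4 := h2 _ _ h3
  have h5 := hmul _ _ _ _ (hmul _ _ _ _ (h1 _ _ hz) h4) (hinv _ _ hz)
  have h6 : h * z * h⁻¹ * (h' * ((h * z * h⁻¹)⁻¹ * z) * h'⁻¹) * z⁻¹ =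
      h * (z * v * h' * (z * v)⁻¹) * h⁻¹ * (z * v * h' * (z * v)⁻¹)⁻¹ := by
    have e1 := (hv _ _ h4).mul_inv_cancel
    have e2 := (hv _ _ h3).inv_mul_cancel
    have e3 : v * h' * v⁻¹ = h⁻¹ * (v * h' * v⁻¹) * h := by
      rw [((hv'.symm.mul_right hc).mul_right hv'.symm.inv_right).inv_mul_cancel]
    rw [← e1, ← e2]
    conv_rhs => rw [show h * (z * v * h' * (z * v)⁻¹) = h * z * (v * h' * v⁻¹) * z⁻¹ by group, e3]
    group
  have h7 : ∀ k : ℕ, ∃ g ∈ H, co g (a ^ k * ((a - 1) * (1 - a'))) := fun k => by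
    induction k with
    | zero => exact ⟨_, h6 ▸ mul_mem (mul_mem (mul_mem hh hb) (inv_mem hh)) (inv_mem hb), by convert h5 using 1; ring⟩
    | succ k ih =>
      obtain ⟨g, hg, e⟩ := ih
      exact ⟨_, mul_mem (mul_mem hh hg) (inv_mem hh), by convert h1 _ _ e using 1; ring⟩
  have h8 := mul_ne_zero (sub_ne_zero.2 ha1) (sub_ne_zero.2 ha'.symm)
  by_cases ht : t = 0
  · exact ⟨_, one_mem _, by simpa [ht] using hmul _ _ _ _ hz (hinv _ _ hz)⟩
  obtain ⟨k, hk⟩ := ha _ (div_ne_zero ht h8)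
  simpa [← hk, div_mul_cancel₀ _ h8] using h7 k

/-- Certificates for the closure of a set of roots under an element of the Weyl group and under sums. -/
def chkF (D : ChevalleyDatum) (l : List (Fin D.rank)) (Ns : List ℤ) (ex : ℕ → ℕ → Bool) (T : List ℕ) :
    List ℕ → List (ℕ × ℕ × ℕ) → Bool
  | L, [] => T.all (· ∈ L)
  | L, (k, a, b) :: st => b ∈ L && b < D.nroots && (k == actW D l b || (a ∈ L && a < D.nroots && b != a && b != D.neg a &&
      ex a b && Ns.any fun N => D.commTerms a b == [(k, N, 1, 1)])) && chkF D l Ns ex T (k :: L) st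

theorem chkF_sound {D : ChevalleyDatum} {l : List (Fin D.rank)} {Ns : List ℤ} {ex : ℕ → ℕ → Bool} {T : List ℕ}
    {P : ℕ → Prop} (h1 : ∀ b < D.nroots, P b → P (actW D l b))
    (h2 : ∀ a < D.nroots, ∀ b < D.nroots, b ≠ a → b ≠ D.neg a → ex a b = true → ∀ k, ∀ N ∈ Ns,
      D.commTerms a b = [(k, N, 1, 1)] → P a → P b → P k) {L : List ℕ} {st : List (ℕ × ℕ × ℕ)} (hL : ∀ r ∈ L, P r)
    (h : chkF D l Ns ex T L st = true) : ∀ r ∈ T, P r := by
  induction st generalizing L with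
  | nil => exact fun r hr => hL r (by simpa using List.all_eq_true.1 h r hr)
  | cons s st ih =>
    obtain ⟨k, a, b⟩ := s
    simp only [chkF, Bool.and_eq_true, decide_eq_true_eq, Bool.or_eq_true, beq_iff_eq, bne_iff_ne, List.any_eq_true] at h
    refine ih (List.forall_mem_cons.2 ⟨?_, hL⟩) h.2
    rcases h.1.2 with e | ⟨⟨⟨⟨⟨e1, e2⟩, e3⟩, e4⟩, e5⟩, N, hN, e⟩
    · exact e ▸ h1 b h.1.1.2 (hL b h.1.1.1)
    · exact h2 a e2 b h.1.1.2 e3 e4 e5 k N hN e (hL a e1) (hL b h.1.1.1)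

variable {D : ChevalleyDatum} {K : Type*} [Field K] {G : Type*} [Group G] [hD : RootFacts D] [hN : NFacts D]
  {x : ℕ → K → G} {H : Subgroup G} {l : List (Fin D.rank)} {m h : G} {Ns : List ℤ} {T L : List ℕ} {st : List (ℕ × ℕ × ℕ)}

omit hD hN in
theorem comm_single (hx : IsSt D x) {a b k : ℕ} {N : ℤ} (ha : a < D.nroots) (hb : b < D.nroots) (h1 : b ≠ a)
    (h2 : b ≠ D.neg a) (h : D.commTerms a b = [(k, N, 1, 1)]) (u : K) :
    (x b u)⁻¹ * (x a (-1))⁻¹ * x b u * x a (-1) = x k (N * u) := by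
  simpa [ChevalleyDatum.commWord, h] using hx.comm a b ha hb h1 h2 (-1) u

theorem acts_conj (hx : IsSt D x) {w : Equiv.Perm ℕ} (hm : NRep D x m w) {c : ℕ → K} (hh : Acts x h 1 c) :
    Acts x (m⁻¹ * h * m) 1 fun s => c (w s) := fun s u => by
  obtain ⟨a, -, ha⟩ := hm.acts hx
  have h1 := hh (w s) (a s * u)
  rw [← ha, Equiv.Perm.one_apply, mul_left_comm, ← ha] at h1
  rw [Equiv.Perm.one_apply, ← (MulAut.conj m).injective.eq_iff, MulAut.conj_apply, MulAut.conj_apply, ← h1]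
  group

theorem full_of_chkF (hx : IsSt D x) (hm : NRep D x m (wordW D l)) (hmH : m ∈ H) (hNs : ∀ N ∈ Ns, (N : K) ≠ 0)
    (hL : ∀ r ∈ L, ∀ t, x r t ∈ H) (h : chkF D l Ns (fun _ _ => true) T L st = true) : ∀ r ∈ T, ∀ t, x r t ∈ H := by
  obtain ⟨c, hc, ha⟩ := hm.acts hx
  refine chkF_sound (P := fun r => ∀ t, x r t ∈ H) (fun b hb h t => ?_) (fun a ha b hb h1 h2 _ k N hN e h3 h4 t => ?_) hL h
  · rw [← wordW_apply, ← mul_div_cancel₀ t (hc.ne_zero hb), ← ha]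
    exact mul_mem (mul_mem hmH (h _)) (inv_mem hmH)
  · rw [← mul_div_cancel₀ t (hNs N hN), ← comm_single hx ha hb h1 h2 e]
    exact mul_mem (mul_mem (mul_mem (inv_mem (h4 _)) (inv_mem (h3 _))) (h4 _)) (h3 _)

variable (D) in
/-- The fundamental roots and their negatives. -/
def pmS : List ℕ := (List.finRange D.rank).flatMap fun i => [D.simple i, D.neg (D.simple i)]

theorem top_of_chkF (hx : IsSt D x) (hG : GG x = ⊤) (hm : NRep D x m (wordW D l)) (hmH : m ∈ H) (hNs : ∀ N ∈ Ns, (N : K) ≠ 0)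
    (hL : ∀ r ∈ L, ∀ t, x r t ∈ H) (h : chkF D l Ns (fun _ _ => true) (pmS D) L st = true) : H = ⊤ :=
  have := full_of_chkF hx hm hmH hNs hL h
  top_le_iff.1 (hG ▸ hx.GG_le_of_pm_simple (fun i => this _ (List.mem_flatMap.2 ⟨i, by simp⟩))
    fun i => this _ (List.mem_flatMap.2 ⟨i, by simp⟩))

omit hD hN in
theorem gen_x (hx : IsSt D x) {h' v : G} {c c' : ℕ → K} {r : ℕ} (h1 : Acts x h 1 c) (h2 : Acts x h' 1 c')
    (hc : Commute h h') (hv : ∀ t, Commute v (x r t)) (hv' : Commute v h) (hh : h ∈ H)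
    (hb : x r 1 * v * h' * (x r 1 * v)⁻¹ ∈ H) (ha : ∀ t ≠ 0, ∃ k : ℕ, t = c r ^ k) (ha1 : c r ≠ 1) (ha' : c' r ≠ 1)
    (t : K) : x r t ∈ H := by
  obtain ⟨_, hg, rfl⟩ := gen_core (fun g t => g = x r t) (fun _ _ _ _ e e' => by rw [e, e', hx.add])
    (fun _ _ e => by rw [e, hx.neg]) (fun _ _ e => e ▸ h1 r _) (fun _ _ e => e ▸ h2 r _) hc (fun _ _ e => e ▸ hv _) hv' rfl
    hh hb ha ha1 ha' t
  exact hg

/-- The powers of `θ` with exponents in `E` generate the multiplicative group and are different from one. -/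
def PrimE (θ : K) (E : List ℤ) : Prop := θ ≠ 0 ∧ ∀ e ∈ E, θ ^ e ≠ 1 ∧ ∀ t ≠ 0, ∃ k : ℕ, t = (θ ^ e) ^ k

variable [Finite K] {θ : K} {E : List ℤ}

theorem gen_one [MatFacts D] [ChainFacts D] (hx : IsChev D x) (hG : GG x = ⊤) (hθ : PrimE θ E) (hNs : ∀ N ∈ Ns, (N : K) ≠ 0) (l : List (Fin D.rank))
    (a g : ℕ) (st : List (ℕ × ℕ × ℕ)) (h : (g < D.nroots ∧ A D g a ∈ E ∧ A D g (actW D l a) ∈ E) ∧
      chkF D l Ns (fun _ _ => true) (pmS D) [a] st = true) : ∃ a b : G, Subgroup.closure {a, b} = ⊤ := by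
  have hs := hx.toIsSt
  have hm := NRep.nWd x l
  have h1 := hs.acts_hE h.1.1 hθ.1
  have h2 := hE_mem_HH x h.1.1 hθ.1
  refine ⟨hE D x g θ, x a 1 * (nWd D x l)⁻¹, ?_⟩
  have h3 := Subgroup.subset_closure (k := {hE D x g θ, x a 1 * (nWd D x l)⁻¹}) (Set.mem_insert _ _)
  have h4 := Subgroup.subset_closure (k := {hE D x g θ, x a 1 * (nWd D x l)⁻¹}) (Set.mem_insert_of_mem _ rfl)
  have h5 := gen_x hs (r := a) h1 (acts_conj hs hm h1) (hx.HH_commute h2 (hs.NN_conj_HH' hm.mem_NN h2))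
    (fun _ => Commute.one_left _) (Commute.one_left _) h3 (by simpa [mul_assoc] using mul_mem (mul_mem h4 h3) (inv_mem h4))
    (hθ.2 _ h.1.2.1).2 (hθ.2 _ h.1.2.1).1 (by simpa only [wordW_apply] using (hθ.2 _ h.1.2.2).1)
  exact top_of_chkF hs hG hm (by simpa using mul_mem (inv_mem h4) (h5 1)) hNs (by simpa using h5) h.2

theorem gen_two [MatFacts D] [ChainFacts D] (hx : IsChev D x) (hG : GG x = ⊤) (hθ : PrimE θ E) (l : List (Fin D.rank))
    (a b b' g : ℕ) (st : List (ℕ × ℕ × ℕ)) (h : (g < D.nroots ∧ A D g a ∈ E ∧ A D g (actW D l a) ∈ E ∧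
      A D g (actW D l b) ∈ E ∧ A D g b' ∈ E ∧ actW D l b' = b ∧ A D g b = 0 ∧ a ≠ D.neg b ∧ D.commTerms b a = []) ∧
      chkF D l [1, -1] (fun _ _ => true) (pmS D) [a, b] st = true) : ∃ a b : G, Subgroup.closure {a, b} = ⊤ := by
  obtain ⟨⟨e1, e2, e3, e4, e5, e6, e7, e8, e9⟩, h⟩ := h
  have hs := hx.toIsSt
  have hm := NRep.nWd x l
  have h1 := hs.acts_hE e1 hθ.1
  have h2 := hE_mem_HH x e1 hθ.1
  refine ⟨hE D x g θ, x a 1 * x b 1 * (nWd D x l)⁻¹, ?_⟩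
  have h3 := Subgroup.subset_closure (k := {hE D x g θ, x a 1 * x b 1 * (nWd D x l)⁻¹}) (Set.mem_insert _ _)
  have h4 := Subgroup.subset_closure (k := {hE D x g θ, x a 1 * x b 1 * (nWd D x l)⁻¹}) (Set.mem_insert_of_mem _ rfl)
  have h0 : Commute (x b 1) (hE D x g θ) := by
    have := h1 b 1
    beta_reduce at this
    rw [e7, zpow_zero, mul_one, mul_inv_eq_iff_eq_mul] at this
    exact this.symm
  have h5 := gen_x hs (r := a) h1 (acts_conj hs hm h1) (hx.HH_commute h2 (hs.NN_conj_HH' hm.mem_NN h2))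
    (hs.commute e8 e9 1) h0 h3 (by simpa [mul_assoc] using mul_mem (mul_mem h4 h3) (inv_mem h4))
    (hθ.2 _ e2).2 (hθ.2 _ e2).1 (by simpa only [wordW_apply] using (hθ.2 _ e3).1)
  have h6 := (show (x a 1)⁻¹ * (x a 1 * x b 1 * (nWd D x l)⁻¹) = x b 1 * (nWd D x l)⁻¹ by group) ▸ mul_mem (inv_mem (h5 1)) h4
  have e : (wordW D l)⁻¹ b = b' := by rw [← e6, ← wordW_apply, perm_inv_apply]
  have h7 := gen_x hs (H := Subgroup.closure {hE D x g θ, x a 1 * x b 1 * (nWd D x l)⁻¹}) (r := b) (acts_conj hs (hm.inv hs) h1) (acts_conj hs hm h1)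
    (hx.HH_commute (hs.NN_conj_HH' (inv_mem hm.mem_NN) h2) (hs.NN_conj_HH' hm.mem_NN h2))
    (fun _ => Commute.one_left _) (Commute.one_left _)
    (by simpa [mul_assoc, h0.symm.left_comm] using mul_mem (mul_mem (inv_mem h6) h3) h6)
    (by simpa [mul_assoc] using mul_mem (mul_mem h6 h3) (inv_mem h6)) (by simpa only [e] using (hθ.2 _ e5).2)
    (by simpa only [e] using (hθ.2 _ e5).1) (by simpa only [wordW_apply] using (hθ.2 _ e4).1)
  exact top_of_chkF hs hG hm (by simpa using mul_mem (inv_mem h6) (h7 1)) (by simp) (by simpa using ⟨h5, h7⟩) h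

omit hD hN [Finite K] in
theorem full_of_prime (hx : IsSt D x) (hK : ∀ t : K, ∃ k : ℕ, t = k) {r : ℕ} (h : x r 1 ∈ H) (t : K) : x r t ∈ H := by
  obtain ⟨k, rfl⟩ := hK t
  induction k with
  | zero => rw [Nat.cast_zero, hx.zero]; exact one_mem _
  | succ k ih => rw [Nat.cast_succ, hx.add]; exact mul_mem ih h

omit [Finite K] in
theorem gen_prime (hx : IsSt D x) (hG : GG x = ⊤) (hK : ∀ t : K, ∃ k : ℕ, t = k) (hNs : ∀ N ∈ Ns, (N : K) ≠ 0)
    (l : List (Fin D.rank)) (a : ℕ) (st : List (ℕ × ℕ × ℕ))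
    (h : chkF D l Ns (fun _ _ => true) (pmS D) [a] st = true) : ∃ a b : G, Subgroup.closure {a, b} = ⊤ :=
  ⟨x a 1, nWd D x l, top_of_chkF hx hG (NRep.nWd x l) (Subgroup.subset_closure (by simp)) hNs
    (by simpa using full_of_prime hx hK (Subgroup.subset_closure (by simp))) h⟩

omit [Finite K] in
theorem gen_mask [CharP K 2] [MatFacts D] [ChainFacts D] {F : Fast} (hF : Agree D F) (hx : IsChev D x) (hG : GG x = ⊤)
    (hK : ∀ t : K, ∃ k : ℕ, t = k) (l : List (Fin D.rank)) (a b r : ℕ) (La Lb : List ℕ) (st st' : List (ℕ × ℕ × ℕ))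
    (h : chkOne F ((La ++ La ++ La) ++ [a].reverse) = true ∧ chkOne F ((La ++ [r] ++ La.reverse ++ Lb) ++ [b].reverse) = true ∧
      chkF D l [1, -1] (fun _ _ => true) (r :: Lb) [a] st = true ∧
      chkF D l [1, -1] (fun _ _ => true) (pmS D) [a, b] st' = true) : ∃ a b : G, Subgroup.closure {a, b} = ⊤ := by
  have hs := hx.toIsSt
  refine ⟨px x La, nWd D x l, ?_⟩
  have h3 := Subgroup.subset_closure (k := {px x La, nWd D x l}) (Set.mem_insert _ _)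
  have h4 := Subgroup.subset_closure (k := {px x La, nWd D x l}) (Set.mem_insert_of_mem _ rfl)
  have h1 := px_eq_of_chk hx hF h.1
  have h2 := px_eq_of_chk hx hF h.2.1
  simp only [px_append, hs.px_reverse, px_cons, px_nil, mul_one] at h1 h2
  have h5 := full_of_prime hs hK (h1 ▸ mul_mem (mul_mem h3 h3) h3)
  have h6 := full_of_chkF hs (NRep.nWd x l) h4 (by simp) (by simpa using h5) h.2.2.1
  have h7 := full_of_prime hs hK (h2 ▸ mul_mem (mul_mem (mul_mem h3 (h6 r (by simp) 1)) (inv_mem h3))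
    (Subgroup.list_prod_mem _ (List.forall_mem_map.2 fun s hs => h6 s (by simp [hs]) 1)))
  exact top_of_chkF hs hG (NRep.nWd x l) h4 (by simp) (by simpa using ⟨h5, h7⟩) h.2.2.2

theorem exists_primE (hK : ∃ t : K, t ≠ 0 ∧ t ≠ 1) : ∃ θ : K, PrimE θ [1, -1] := by
  obtain ⟨θ, hθ⟩ := IsCyclic.exists_generator (α := Kˣ)
  have h1 : ∀ g : Kˣ, (∀ u, u ∈ Subgroup.zpowers g) → (g : K) ≠ 1 ∧ ∀ t ≠ 0, ∃ k : ℕ, t = (g : K) ^ k := fun g hg => by
    have h2 : ∀ t ≠ 0, ∃ k : ℕ, t = (g : K) ^ k := fun t ht => by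
      obtain ⟨k, hk⟩ := mem_powers_iff_mem_zpowers.2 (hg (Units.mk0 t ht))
      exact ⟨k, by simpa using (congrArg Units.val hk).symm⟩
    refine ⟨fun e => ?_, h2⟩
    obtain ⟨t, h3, h4⟩ := hK
    obtain ⟨k, hk⟩ := h2 t h3
    exact h4 (by rw [hk, e, one_pow])
  refine ⟨θ, θ.ne_zero, ?_⟩
  simpa using ⟨by simpa using h1 θ hθ, by simpa using h1 θ⁻¹ (by simpa using hθ)⟩

omit [Finite K] in
theorem PrimE.two [CharP K 2] [Finite K] (h : PrimE θ [1, -1]) : ∃ θ : K, PrimE θ [2, -2] := by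
  obtain ⟨s, rfl⟩ := (frobenius K 2).injective.bijective_of_finite.2 θ
  refine ⟨s, fun e => h.1 (by simp [e]), ?_⟩
  simpa [frobenius_def, zpow_ofNat] using h.2

end Cfsg.Agent.H7
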