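import Cfsg.Agent.H7.Gen2Tw
import Cfsg.Agent.H7.TwOutF4
import Cfsg.Agent.H8.InvF4

/-! Generation of the large Ree groups by two elements. -/

set_option autoImplicit false
set_option linter.unusedSectionVars false

namespace Cfsg.Agent.H7

open Cfsg.Lie Cfsg.Agent.H8

variable {K : Type*} [Field K] [CharP K 2] [Finite K] {G : Type*} [Group G] {x : ℕ → K → G} {e : ℕ} {φ : K →+* K}

set_option synthInstance.maxSize 2000 in
theorem genF4 (hx : IsChev chevF4 x) (h0 : GG x = ⊤) (hφ : ∀ t, φ t = t ^ e) (h2 : ∀ t, φ (φ t) ^ 2 = t)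
    (hK : ∃ t : K, t ≠ 0 ∧ t ≠ 1) :
    ∃ a ∈ twS x (f4Words K e), ∃ b ∈ twS x (f4Words K e), twS x (f4Words K e) ≤ Subgroup.closure {a, b} := by
  obtain ⟨σ, hσ⟩ := exists_twistF4 hx h0 φ
  have h := twD_F4 hx h0 hφ h2 hσ
  have hs := hx.toIsSt
  have hF := hx.toIsFaith
  obtain ⟨_, hθ⟩ := exists_primE hK
  obtain ⟨θ, rfl⟩ := (frobenius K 2).injective.bijective_of_finite.2 ‹K›
  have h1 : θ ≠ 0 := fun e => hθ.1 (by simp [e])
  obtain ⟨ξ, η, a0⟩ := h.exists_abO (i := ⟨3, by decide⟩) (RingHom.id K) [(33, φ), (24, RingHom.id K)]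
    (by simp only [List.map]; decide +kernel) (by simp only [Set.mem_setOf_eq]; decide +kernel) (by simp only [List.map]; decide +kernel)
    (fun t => by simpa [hφ] using mem_f4a (r := 33) (s := 24) (by simp) t)
    (fun t => by simpa [hφ, show chevF4.neg 33 = 14 from rfl, show chevF4.neg 24 = 23 from rfl]
      using mem_f4a (r := 14) (s := 23) (by simp) t)
    (fun t => by simpa using co_f4 hs _ t ⟨3, by decide⟩) (fun _ _ t _ => ⟨t, rfl⟩)
    (nrep_wJ _ (R := [33, 24]) [0, 3] (by decide +kernel))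
  obtain ⟨y, h6, h8, h7⟩ : ∃ y ∈ twS x (f4Words K e), y ∈ HH chevF4 x ∧
      Acts x y 1 fun s => φ θ ^ A chevF4 33 s * θ ^ A chevF4 24 s :=
    ⟨_, Subtype.prop _, NRep.mem_HH hs (wJ_mul_self (D := chevF4) _ ▸ (a0.nrep θ h1).mul hs (a0.nrep (-1) (by simp)) :),
      by simpa only [List.map, List.prod_cons, List.prod_nil, mul_one, RingHom.id_apply] using a0.acts θ h1⟩
  obtain ⟨m, hm, hn⟩ := h.sub.exists_rep hσ hF (wordW_mem (fl chevF4 [0, 3, 1, 2, 1, 2])) (Equiv.ext fun r => by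
    by_cases hr : r < chevF4.nroots
    · revert r; decide +kernel
    · simp [W_apply_ge (wordW_mem _) (not_lt.1 hr), W_apply_ge (wordW_mem _) (not_lt.1 (mt (hσ.lt r).1 hr))])
  have h9 := mul_mem (suz_mem (x := x) hφ 1 0) (inv_mem hm)
  refine ⟨y, h6, _, h9, ?_⟩
  have h10 := Subgroup.subset_closure (k := {y, suz x φ 1 0 * m⁻¹}) (Set.mem_insert _ _)
  have h11 := Subgroup.subset_closure (k := {y, suz x φ 1 0 * m⁻¹}) (Set.mem_insert_of_mem _ rfl)
  generalize Subgroup.closure {y, suz x φ 1 0 * m⁻¹} = H at h10 h11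
  obtain ⟨e1, e2, e3, e4⟩ : A chevF4 33 25 = 0 ∧ A chevF4 24 25 = -1 ∧
    A chevF4 33 (wordW chevF4 (fl chevF4 [0, 3, 1, 2, 1, 2]) 25) = 0 ∧
    A chevF4 24 (wordW chevF4 (fl chevF4 [0, 3, 1, 2, 1, 2]) 25) = -1 := by decide +kernel
  have h3 : θ ≠ 1 := fun e => (hθ.2 1 (by simp)).1 (by simp [e])
  have h12 : ∀ t, ∃ u, suz x φ t u ∈ H := fun t => by
    have h4 : ∀ {y c}, y ∈ twS x (f4Words K e) → Acts x y 1 c → ∀ g s, (g ∈ XJ chevF4 x {j | j ∈ oLF4 2} ∧ σ g = g) ∧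
        Co chevF4 x ⟨2, by decide⟩ g s → (y * g * y⁻¹ ∈ XJ chevF4 x {j | j ∈ oLF4 2} ∧ σ (y * g * y⁻¹) = y * g * y⁻¹) ∧
          Co chevF4 x ⟨2, by decide⟩ (y * g * y⁻¹) (c 25 * s) := fun hy hc g s hg =>
      ⟨⟨hc.conj_mem_XS (fun _ h => h) hg.1.1, by simp [h.sub.fix _ hy, hg.1.2]⟩, hg.2.acts hc⟩
    obtain ⟨g, hg, ⟨a, b⟩, c⟩ := gen_core (v := 1) (z := suz x φ 1 0) (fun g t => (g ∈ XJ chevF4 x {j | j ∈ oLF4 2} ∧ σ g = g) ∧
        Co chevF4 x ⟨2, by decide⟩ g t)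
      (fun _ _ _ _ e e' => ⟨⟨mul_mem e.1.1 e'.1.1, by simp [e.1.2, e'.1.2]⟩, e.2.mul hs e'.2⟩)
      (fun _ _ e => ⟨⟨inv_mem e.1.1, by simp [e.1.2]⟩, e.2.inv hF⟩) (h4 h6 h7)
      (h4 (mul_mem (mul_mem (inv_mem hm) h6) hm) (acts_conj hs hn h7)) (hx.HH_commute h8 (hs.NN_conj_HH' hn.mem_NN h8))
      (fun _ _ _ => Commute.one_left _) (Commute.one_left _)
      ⟨⟨suz_mem_XJ 1 0, h.sub.fix _ (suz_mem hφ 1 0)⟩, co_suz hs 1 0 ⟨2, by decide⟩⟩ h10
      (by simpa [mul_assoc] using mul_mem (mul_mem h11 h10) (inv_mem h11)) (fun t ht => by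
        obtain ⟨k, hk⟩ := (hθ.2 (-1) (by simp)).2 t ht
        exact ⟨2 * k, by simpa [e1, e2, pow_mul, frobenius_def] using hk⟩) (by simpa [e1, e2] using h3)
      (by simpa [e3, e4] using h3) t
    obtain ⟨s, u, rfl⟩ := exists_suz hx h2 hσ a b
    exact ⟨u, c.unique hF (co_suz hs s u ⟨2, by decide⟩) ▸ hg⟩
  have h13 : ∀ u, suz x φ 0 u ∈ H := fun u => by
    obtain ⟨s, rfl⟩ := Finite.surjective_of_injective (f := fun s => φ s * s) (fun a b e => by
      have e1 := congrArg (fun t => φ t ^ 2) e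
      simp only [map_mul, mul_pow, h2] at e1 e
      by_cases ha : a = 0
      · exact ha.trans (Eq.symm (by simpa [ha] using e))
      by_cases hb : b = 0
      · simpa [hb] using e
      refine mul_left_cancel₀ (mul_ne_zero (pow_ne_zero 2 ((map_ne_zero φ).2 ha)) (mul_ne_zero ha hb)) ?_
      linear_combination (-a * b ^ 2 + b ^ 2 * a) * e1 + b * (φ a * a + φ b * b) * e - b ^ 2 * e1) u
    obtain ⟨v, hv⟩ := h12 s
    simpa [suz_mul hs h2, CharTwo.add_self_eq_zero] using mul_mem hv hv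
  have h14 : ∀ t u, suz x φ t u ∈ H := fun t u => by
    obtain ⟨v, hv⟩ := h12 t
    simpa [suz_mul hs h2] using mul_mem hv (h13 (u - v))
  have h15 : m ∈ H := by simpa using mul_mem (inv_mem h11) (h14 1 0)
  have h16 : ∀ k : ℕ, ∀ g ∈ twS x (f4Words K e), g ∈ XS x {r | (wordW chevF4 (fl chevF4 [0, 3, 1, 2, 1, 2])).symm^[k] r ∈
      [27, 25, 28, 30]} → g ∈ H := fun k => by
    induction k with
    | zero =>
      intro g a b
      obtain ⟨s, u, rfl⟩ := exists_suz hx h2 hσ (XS_mono x (by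
        intro r hr
        exact (by decide +kernel : ∀ r ∈ [27, 25, 28, 30], chevF4.IsPosRoot r ∧ chevF4.InRootSub {j | j ∈ oLF4 2} r) r hr) b)
        (h.sub.fix g a)
      exact h14 s u
    | succ k ih =>
      intro g a b
      simpa [mul_assoc] using mul_mem (mul_mem h15 (ih _ (mul_mem (mul_mem (inv_mem hm) a) hm)
        (hn.conj_XS' hs (fun _ h => h) b))) (inv_mem h15)
  have h17 : ∀ (k : ℕ) (L : List ℕ), (∀ r ∈ L, (wordW chevF4 (fl chevF4 [0, 3, 1, 2, 1, 2])).symm^[k] r ∈ [27, 25, 28, 30]) ∧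
      ((∀ r ∈ L, chevF4.IsPosRoot r) ∨ ∀ r ∈ L, chevF4.IsNegRoot r) ∧ chkOne fastF4 (L.map rhoF4 ++ L.reverse) = true ∧
      (∀ r ∈ L, (twT twF4 r).2.2 = 1) → px x L ∈ H := fun k L hL => by
    have h3 : σ (px x L) = px x L := by
      refine Eq.trans ?_ (px_eq_of_chk hx agrF4 hL.2.2.1)
      rw [px, px, map_list_prod, List.map_map, List.map_map]
      exact congrArg _ (List.map_congr_left fun r hr => by simp [hσ.map, twF, hL.2.2.2 r hr])
    exact h16 k _ (hL.2.1.elim (fun e => h.sub.mem_of_UU hσ hF (px_mem e) h3) fun e => h.sub.mem_of_VV hσ hF (px_mem e) h3)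
      (px_mem hL.1)
  have h18 : ∀ (r s : ℕ) (n : ℤ) (L L' : List ℕ), px x L ∈ H → px x L' ∈ H → n ∈ [1, -1] ∧ A chevF4 33 r = 2 * n ∧
      A chevF4 24 r = 0 ∧ A chevF4 33 s = 0 ∧ A chevF4 24 s = 2 * n ∧
      chkOne fastF4 ((L ++ L' ++ L.reverse ++ L'.reverse) ++ [r, s].reverse) = true → ∀ t, x r (φ t) * x s t ∈ H := by
    rintro r s n L L' a b ⟨c1, c2, c3, c4, c5, c6⟩ t
    by_cases ht : t = 0
    · simp [ht, hs.zero]
    obtain ⟨k, rfl⟩ := (hθ.2 n c1).2 t ht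
    induction k with
    | zero =>
      have := px_eq_of_chk hx agrF4 c6
      simp only [px_append, hs.px_reverse] at this
      simpa [this, px_cons] using mul_mem (mul_mem (mul_mem a b) (inv_mem a)) (inv_mem b)
    | succ k ih =>
      have := mul_mem (mul_mem h10 (ih (pow_ne_zero _ (zpow_ne_zero _ hθ.1)))) (inv_mem h10)
      rw [← conj_mul, h7, h7] at this
      simpa [c2, c3, c4, c5, zpow_mul, pow_succ', frobenius_def, zpow_ofNat] using this
  refine twS_le.2 ?_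
  rintro l hl
  obtain ⟨t, rfl | rfl⟩ | ⟨t, u, rfl | rfl⟩ := id hl
  · simpa [f4PairWord, ← hφ] using h18 f4p1 f4p4 1 [20, 22, 19] [34, 26, 36] (h17 4 _ (by decide +kernel))
      (h17 5 _ (by decide +kernel)) (by decide +kernel) t
  · simpa [f4PairWord, ← hφ] using h18 f4m1 f4m4 (-1) [27, 25, 28] [13, 21, 11] (h17 0 _ (by decide +kernel))
      (h17 1 _ (by decide +kernel)) (by decide +kernel) t
  · exact h16 0 _ (ev_mem_twS hl) (ev_mem_XS (List.forall_mem_map.1 (by simp only [List.map, b2ClassWord]; decide +kernel)))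
  · exact h16 4 _ (ev_mem_twS hl) (ev_mem_XS (List.forall_mem_map.1 (by simp only [List.map, b2ClassWord]; decide +kernel)))

end Cfsg.Agent.H7
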