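import Cfsg.Agent.H7.Gen2
import Cfsg.Agent.H7.OvTwAll
import Cfsg.Agent.H7.TwAut3

/-! Generation of the twisted groups of types `E6` and `D4` by two elements. -/

set_option autoImplicit false
set_option linter.unusedSectionVars false

namespace Cfsg.Agent.H7

open Cfsg.Lie Cfsg.Agent.H8

theorem two_gen_of {G G' : Type*} [Group G] [Group G'] {S : Subgroup G} (e : S ≃* G')
    (h : ∃ a ∈ S, ∃ b ∈ S, S ≤ Subgroup.closure {a, b}) : ∃ a b : G', Subgroup.closure {a, b} = ⊤ := by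
  obtain ⟨a, ha, b, hb, h⟩ := h
  have h1 : Subgroup.closure {(⟨a, ha⟩ : S), ⟨b, hb⟩} = ⊤ := by
    rw [← Subgroup.map_subtype_inj, MonoidHom.map_closure, ← MonoidHom.range_eq_map, Subgroup.range_subtype, Set.image_pair]
    exact le_antisymm ((Subgroup.closure_le _).2 (Set.pair_subset ha hb)) h
  refine ⟨e ⟨a, ha⟩, e ⟨b, hb⟩, ?_⟩
  simpa [MonoidHom.map_closure, Set.image_pair] using congrArg (Subgroup.map e.toMonoidHom) h1

variable {D : ChevalleyDatum} [hD : RootFacts D] [hG : DiagFacts D] {K : Type*} [Field K] {G : Type*} [Group G]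
  [hN : NFacts D] {x : ℕ → K → G} {σ φ : G →* G} {ρ : Equiv.Perm ℕ} {π : Fin D.rank → Fin D.rank} {e : ℕ → K → K}
  {f : K →+* K} {S M : Subgroup G} {O : ℕ → List ℕ} {k ts : ℕ} {c : Fin D.rank → ℤ}

variable (D) in
/-- The roots of the list commute with their images. -/
def exO (ρ : Equiv.Perm ℕ) (a b : ℕ) : Bool :=
  [a, b].all fun r => [a, b].all fun s => ρ s != D.neg r && D.commTerms r (ρ s) == []

namespace OvT

variable (h : OvT D x σ φ ρ π e f S S O k ts c)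
include h

theorem Nm_XS {a b : ℕ} (hA : exO D ρ a b = true) (ha : ∀ t, Nm σ k (x a t) ∈ M) (hb : ∀ t, Nm σ k (x b t) ∈ M) {g : G}
    (hg : g ∈ XS x {r | r ∈ [a, b]}) : Nm σ k g ∈ M := by
  have h1 : ∀ g ∈ XS x {r | r ∈ [a, b]}, ∀ g' ∈ XS x {r | r ∈ [a, b]}, Commute g (σ g') := fun g hg g' hg' =>
    Subgroup.mem_centralizer_singleton_iff.1 ((XS_le (H := Subgroup.centralizer {σ g'})).2 (fun r hr t =>
      Subgroup.mem_centralizer_singleton_iff.2 (Subgroup.mem_centralizer_singleton_iff.1 ((XS_le (H :=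
        (Subgroup.centralizer {x r t}).comap σ)).2 (fun s hs u => Subgroup.mem_centralizer_singleton_iff.2 (by
          have := List.all_eq_true.1 (List.all_eq_true.1 hA r hr) s hs
          simp only [Bool.and_eq_true, bne_iff_ne, beq_iff_eq] at this
          rw [h.tw.map]; exact (h.st.commute this.1 this.2 _ _).symm)) hg')).symm) hg)
  induction hg using Subgroup.closure_induction with
  | mem g hg =>
    obtain ⟨r, hr, t, rfl⟩ := hg
    obtain rfl | rfl : r = a ∨ r = b := by simpa using hr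
    exacts [ha t, hb t]
  | one => simp [Nm]
  | mul g g' hg hg' ih ih' => exact h.Nm_mul (h1 _ hg' _ hg) (h1 _ hg _ hg') ▸ mul_mem ih ih'
  | inv g hg ih =>
    rw [← mul_mem_cancel_left ih, ← h.Nm_mul (h1 _ (inv_mem hg) _ hg) (h1 _ hg _ (inv_mem hg))]
    simp [Nm]

theorem gen [Finite K] (l : List (Fin D.rank)) (a g : ℕ) (T : List ℕ) (st : List (ℕ × ℕ × ℕ))
    (h1 : (∀ r < D.nroots, ρ (wordW D l r) = wordW D l (ρ r)) ∧ g < D.nroots ∧ ρ g ≠ g ∧ exO D ρ g (D.neg g) = true ∧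
      a < D.nroots ∧ ρ a ≠ a ∧ chkF D l [1, -1] (exO D ρ) T [a] st = true) (h2 : ∀ t, e g t = f t ∧ e (ρ g) t = f t) {θ : K}
    (hθ : θ ≠ 0) (h3 : ∀ t ≠ 0, ∃ n : ℕ, t = (θ ^ A D g a * (f θ ^ A D (ρ g) a * (f (f θ) ^ A D (ρ (ρ g)) a) ^ k)) ^ n)
    (h4 : ∀ s ∈ [a, actW D l a], θ ^ A D g s * (f θ ^ A D (ρ g) s * (f (f θ) ^ A D (ρ (ρ g)) s) ^ k) ≠ 1) :
    ∃ y ∈ S, ∃ z ∈ S, ∀ r ∈ T, ∀ t, Nm σ k (x r t) ∈ Subgroup.closure {y, z} := by
  obtain ⟨e1, e2, e3, e4, e5, e6, e7⟩ := h1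
  have hs := h.st
  obtain ⟨m, hm, hn⟩ := h.sub.exists_rep h.tw h.chev.toIsFaith (wordW_mem l) (Equiv.ext fun r => by
    by_cases hr : r < D.nroots
    · exact e1 r hr
    · simp [W_apply_ge (wordW_mem _) (not_lt.1 hr), W_apply_ge (wordW_mem _) (not_lt.1 (mt (h.tw.lt r).1 hr))])
  have e8 := (h.tw.lt g).2 e2
  have e9 := (h.tw.lt _).2 e8
  have hf := (map_ne_zero f).2 hθ
  have h5 : ∀ r < D.nroots, (∀ t, e r t = f t) → ∀ t ≠ 0, σ (hE D x r t) = hE D x (ρ r) (f t) := fun r hr he t ht => by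
    simp [hE, h.tw.map_nE hr, ht, he]
  have h6 : Nm σ k (hE D x g θ) ∈ S := h.Nm_XS e4 (h.Nm_mem_S e2 e3) (h.Nm_mem_S (neg_lt e2) fun e => e3
    (neg_inj e8 e2 ((h.tw.neg _ e2).symm.trans e))) (by
      have : ∀ t, nE D x g t ∈ XS x {r | r ∈ [g, D.neg g]} := fun t =>
        mul_mem (mul_mem (x_mem_XS (by simp) _) (x_mem_XS (by simp) _)) (x_mem_XS (by simp) _)
      exact mul_mem (this _) (this _))
  have h7 : Acts x (Nm σ k (hE D x g θ)) 1 fun s =>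
      θ ^ A D g s * (f θ ^ A D (ρ g) s * (f (f θ) ^ A D (ρ (ρ g)) s) ^ k) := by
    rw [Nm, h5 g e2 (fun t => (h2 t).1) θ hθ, h5 _ e8 (fun t => (h2 t).2) _ hf]
    obtain ⟨rfl, -⟩ | ⟨rfl, -⟩ := h.ord
    · simpa using (hs.acts_hE e2 hθ).mul (hs.acts_hE e8 hf)
    · simpa using (hs.acts_hE e2 hθ).mul ((hs.acts_hE e8 hf).mul (hs.acts_hE e9 ((map_ne_zero f).2 hf)))
  have h8 : Nm σ k (hE D x g θ) ∈ HH D x := have := hE_mem_HH x e2 hθ
    mul_mem this (mul_mem (h.tw.map_HH hs this) (pow_mem (h.tw.map_HH hs (h.tw.map_HH hs this)) k))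
  generalize Nm σ k (hE D x g θ) = y at h6 h7 h8
  have h9 := mul_mem (h.Nm_mem_S e5 e6 1) (inv_mem hm)
  refine ⟨y, h6, _, h9, ?_⟩
  have h10 := Subgroup.subset_closure (k := {y, Nm σ k (x a 1) * m⁻¹}) (Set.mem_insert _ _)
  have h11 := Subgroup.subset_closure (k := {y, Nm σ k (x a 1) * m⁻¹}) (Set.mem_insert_of_mem _ rfl)
  have h12 : ∀ t, Nm σ k (x a t) ∈ Subgroup.closure {y, Nm σ k (x a 1) * m⁻¹} := fun t => by
    obtain ⟨_, hg, rfl⟩ := gen_core (h := y) (h' := m⁻¹ * y * m) (v := 1) (fun g t => g = Nm σ k (x a t))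
      (fun _ _ _ _ e e' => by rw [e, e', h.Nm_add e5 e6])
      (fun _ _ e => by rw [e, inv_eq_iff_mul_eq_one, ← h.Nm_add e5 e6]; simp [hs.zero, Nm])
      (fun _ _ e => by rw [e, conj_Nm (h.sub.fix _ h6), h7]; rfl)
      (fun _ _ e => by rw [e, conj_Nm (h.sub.fix _ (mul_mem (mul_mem (inv_mem hm) h6) hm)), acts_conj hs hn h7]; rfl)
      (h.chev.HH_commute h8 (hs.NN_conj_HH' hn.mem_NN h8)) (fun _ _ _ => Commute.one_left _) (Commute.one_left _) rfl h10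
      (by simpa [mul_assoc] using mul_mem (mul_mem h11 h10) (inv_mem h11)) h3 (h4 a (by simp))
      (by simpa only [wordW_apply] using h4 _ (by simp)) t
    exact hg
  have h13 : m ∈ Subgroup.closure {y, Nm σ k (x a 1) * m⁻¹} := by simpa using mul_mem (inv_mem h11) (h12 1)
  obtain ⟨d, hd, ha⟩ := hn.acts hs
  refine chkF_sound (P := fun r => ∀ t, Nm σ k (x r t) ∈ _) (fun b hb h t => ?_)
    (fun a ha b hb h1 h2 e k N hN e' h3 h4 t => ?_) (by simpa using h12) e7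
  · rw [← wordW_apply, ← mul_div_cancel₀ t (hd.ne_zero hb), ← ha, ← conj_Nm (by exact ‹OvT _ _ _ _ _ _ _ _ _ _ _ _ _ _›.sub.fix _ hm)]
    exact mul_mem (mul_mem h13 (h _)) (inv_mem h13)
  · rw [← mul_div_cancel₀ t (show (N : K) ≠ 0 by revert N; simp), ← comm_single hs ha hb h1 h2 e']
    exact h.Nm_XS e h3 h4 (mul_mem (mul_mem (mul_mem (inv_mem (x_mem_XS (by simp) _)) (inv_mem (x_mem_XS (by simp) _)))
      (x_mem_XS (by simp) _)) (x_mem_XS (by simp) _))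

theorem x_mem_of_Nm {r : ℕ} (hr : r < D.nroots) (h1 : ρ r = r) {a : K} (h2 : a + (f a + k * f (f a)) ≠ 0)
    (h3 : f (a + (f a + k * f (f a))) = a + (f a + k * f (f a))) (h4 : ∀ t, Nm σ k (x r t) ∈ M) {s : K} (h5 : f s = s) :
    x r s ∈ M := by
  have h6 : ∀ t, Nm σ k (x r t) = x r (t + (f t + k * f (f t))) := fun t => by
    obtain ⟨rfl, -⟩ | ⟨rfl, -⟩ := h.ord <;> simp [Nm, h.tw.map, h1, h.efix r hr h1, h.st.add]
  convert h4 (s / (a + (f a + k * f (f a))) * a) using 1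
  rw [h6]
  simp only [map_mul, map_div₀, h3, h5]
  congr 1
  field_simp

end OvT

variable [Finite K] {q : ℕ}

theorem genE6 (hx : IsChev chevE6 x) (h0 : GG x = ⊤) (hφ : ∀ r t, φ (x r t) = x r (f t)) (hf : ∀ t, f t = t ^ q)
    (h2 : ∀ t, f (f t) = t) (h3 : ∃ t, f t ≠ t) :
    ∃ a ∈ twS x (e6Words K q), ∃ b ∈ twS x (e6Words K q), twS x (e6Words K q) ≤ Subgroup.closure {a, b} := by
  obtain ⟨σ, hσ⟩ := exists_twistE6 hx h0 f
  have h5 : ∀ r < chevE6.nroots, (twT twE6 r).2.1 = 1 ∧ (rhoE6 r = r → (twT twE6 r).2.2 = 1) ∧ rhoE6 (rhoE6 r) = r ∧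
    (twT twE6 (rhoE6 r)).2.1 = 1 ∧ (twT twE6 (rhoE6 r)).2.2 * (twT twE6 r).2.2 = 1 := by decide +kernel
  have h := OvT.mk hx h0 hσ (twSubE6 hx.toIsFaith hf h2 hσ) hφ le_rfl (fun _ h _ => h) (by simp [twF])
    (fun r hr e t => by simp [twF, h5 r hr, (h5 r hr).2.1 e]) (Or.inl ⟨rfl, fun r t => by
      by_cases hr : r < chevE6.nroots
      · simp [hσ.map, twF, h5 r hr, h2, ← mul_assoc, ← Int.cast_mul]
      · simp [hx.out r (not_lt.1 hr)]⟩) tabTE6 tabME6.1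
  obtain ⟨u, hu⟩ := h3
  obtain ⟨θ, hθ, h4⟩ := exists_primE (K := K) ⟨u, by rintro rfl; simp at hu, by rintro rfl; simp at hu⟩
  obtain ⟨e1, e2, e3, e4, e5, e6, e7⟩ : rhoE6 37 = 42 ∧ A chevE6 37 35 = 1 ∧ A chevE6 42 35 = 0 ∧
      A chevE6 37 (actW chevE6 (fl chevE6 [1, 3, 2, 4, 0, 5]) 35) = 0 ∧
      A chevE6 42 (actW chevE6 (fl chevE6 [1, 3, 2, 4, 0, 5]) 35) = -1 ∧ twT twE6 37 = (42, 1, 1) ∧ twT twE6 42 = (37, 1, 1) := by
    decide +kernel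
  obtain ⟨y, hy, z, hz, h6⟩ := h.gen (fl chevE6 [1, 3, 2, 4, 0, 5]) 35 37 [46, 25, 39, 32, 56, 15, 42, 29] [(49, 72, 35),
    (43, 72, 49), (62, 72, 43), (41, 72, 62), (42, 72, 41), (56, 72, 42), (10, 72, 56), (31, 72, 10), (30, 35, 31), (46, 49, 30),
    (58, 43, 56), (25, 10, 58), (19, 72, 31), (29, 49, 19), (39, 43, 29), (37, 62, 10), (32, 31, 37), (13, 72, 19), (15, 43, 13)]
    (by decide +kernel) (by simp [twF, e1, e6, e7]) hθ (by simpa [e1, e2, e3] using (h4 1 (by simp)).2)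
    (by simpa [e1, e2, e3, e4, e5, map_eq_one_iff f f.injective] using (h4 1 (by simp)).1)
  obtain ⟨a, ha⟩ : ∃ a, a + f a ≠ 0 := by
    by_contra! h7
    exact hu (by linear_combination h7 u - u * h7 1 + u * map_one f)
  refine ⟨y, hy, z, hz, twS_le.2 ?_⟩
  rintro _ (⟨t, ht, r, hr, rfl⟩ | ⟨t, r, hr, rfl⟩)
  · obtain ⟨h7, h8, h9⟩ := (by decide +kernel : ∀ r ∈ [46, 25, 39, 32], r < chevE6.nroots ∧ rhoE6 r = r ∧
      r ∈ [46, 25, 39, 32, 56, 15, 42, 29]) r hr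
    simpa using h.x_mem_of_Nm h7 h8 (a := a) (by simpa using ha) (by simp [h2, add_comm]) (h6 r h9) (hf t ▸ ht)
  · obtain ⟨h7, h8⟩ := (by decide +kernel : ∀ r ∈ [(56, 36), (15, 35), (42, 37), (29, 34)], twT twE6 r.1 = (r.2, 1, 1) ∧
      r.1 ∈ [46, 25, 39, 32, 56, 15, 42, 29]) r hr
    simpa [Nm, hσ.map_one' h7, hf] using h6 _ h8 t

set_option synthInstance.maxSize 2000 in
theorem genD4 (hx : IsChev chevD4 x) (h0 : GG x = ⊤) (hφ : ∀ r t, φ (x r t) = x r (f t)) (hf : ∀ t, f t = t ^ q)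
    (h2 : ∀ t, f (f (f t)) = t) (h3 : ∃ t, f t ≠ t) :
    ∃ a ∈ twS x (d4Words K q), ∃ b ∈ twS x (d4Words K q), twS x (d4Words K q) ≤ Subgroup.closure {a, b} := by
  obtain ⟨σ, hσ⟩ := exists_twistD4 hx h0 f
  have h5 : ∀ r < chevD4.nroots, (twT triD4 r).2.1 = 1 ∧ (rhoD4 r = r → (twT triD4 r).2.2 = 1) ∧ rhoD4 (rhoD4 (rhoD4 r)) = r ∧
    (twT triD4 (rhoD4 r)).2.1 = 1 ∧ (twT triD4 (rhoD4 (rhoD4 r))).2.1 = 1 ∧
    (twT triD4 (rhoD4 (rhoD4 r))).2.2 * (twT triD4 (rhoD4 r)).2.2 * (twT triD4 r).2.2 = 1 := by decide +kernel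
  have h := OvT.mk hx h0 hσ (twSubD4 hx.toIsFaith hf h2 hσ) hφ le_rfl (fun _ h _ => h) (by simp [twF])
    (fun r hr e t => by simp [twF, h5 r hr, (h5 r hr).2.1 e]) (Or.inr ⟨rfl, fun r t => by
      by_cases hr : r < chevD4.nroots
      · simp [hσ.map, twF, h5 r hr, h2, ← mul_assoc, ← Int.cast_mul]
      · simp [hx.out r (not_lt.1 hr)]⟩) tabTD4 tabMD4.1
  obtain ⟨u, hu⟩ := h3
  obtain ⟨s, hs, h4⟩ := exists_primE (K := K) ⟨u, by rintro rfl; simp at hu, by rintro rfl; simp at hu⟩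
  have h7 : ∀ t : K, t ^ 2 = 1 → f t = t := fun t ht => by obtain rfl | rfl := sq_eq_one_iff.1 ht <;> simp
  obtain ⟨θ, rfl⟩ := Finite.surjective_of_injective (f := fun t : K => t * ((f t)⁻¹ * (f (f t))⁻¹)) (fun a b e => by
    by_cases ha : a = 0
    · exact ha.trans (Eq.symm (by simpa [ha] using e.symm))
    by_cases hb : b = 0
    · simpa [hb] using e
    have e1 : a / b = f (a / b) * f (f (a / b)) := by
      have := (map_ne_zero f).2 ha
      have := (map_ne_zero f).2 hb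
      have := (map_ne_zero f).2 ((map_ne_zero f).2 ha)
      have := (map_ne_zero f).2 ((map_ne_zero f).2 hb)
      simp only [map_div₀]
      field_simp at e ⊢
      linear_combination e
    have e2 := congrArg f e1
    rw [map_mul, h2] at e2
    have e3 := h7 _ (show f (f (a / b)) ^ 2 = 1 from mul_left_cancel₀ (div_ne_zero ha hb) (by
      linear_combination -e1 - f (f (a / b)) * e2))
    have e4 := f.injective (f.injective e3)
    rw [e4, e4, left_eq_mul₀ (div_ne_zero ha hb)] at e1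
    exact (div_eq_one_iff_eq hb).1 e1) s
  have hθ : θ ≠ 0 := by rintro rfl; simp at hs
  obtain ⟨e1, e2, e3, e4, e5, e6, e7, e8, e9, e10⟩ : rhoD4 18 = 13 ∧ rhoD4 13 = 12 ∧ A chevD4 18 19 = 1 ∧ A chevD4 13 19 = -1 ∧
      A chevD4 12 19 = -1 ∧ A chevD4 18 (actW chevD4 (fl chevD4 [0, 2, 3, 1]) 19) = -2 ∧
      A chevD4 13 (actW chevD4 (fl chevD4 [0, 2, 3, 1]) 19) = 0 ∧ A chevD4 12 (actW chevD4 (fl chevD4 [0, 2, 3, 1]) 19) = 0 ∧
      twT triD4 18 = (13, 1, 1) ∧ twT triD4 13 = (12, 1, 1) := by decide +kernel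
  obtain ⟨y, hy, z, hz, h6⟩ := h.gen (fl chevD4 [0, 2, 3, 1]) 19 18 [14, 9, 18, 5]
    [(5, 24, 19), (14, 19, 5), (6, 24, 5), (4, 24, 6), (18, 24, 4), (9, 4, 18)]
    (by decide +kernel) (by simp [twF, e1, e9, e10]) hθ (by simpa [e1, e2, e3, e4, e5] using (h4 1 (by simp)).2) (by
      have h8 : θ ^ 2 ≠ 1 := fun e => by
        obtain ⟨n, hn⟩ := (h4 1 (by simp)).2 u (by rintro rfl; simp at hu)
        exact hu (by simp [hn, h7 θ e])
      simpa [e1, e2, e3, e4, e5, e6, e7, e8, zpow_ofNat, h8] using (h4 1 (by simp)).1)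
  obtain ⟨a, ha⟩ : ∃ a, a + (f a + f (f a)) ≠ 0 := by
    by_contra! h7
    have e1 := h7 1
    have e2 := h7 (u * u)
    simp only [map_one, map_mul] at e1 e2
    refine mul_ne_zero (sub_ne_zero.2 hu) (sub_ne_zero.2 (show f (f u) ≠ u by simpa only [h2] using
      (f.injective.ne (f.injective.ne hu)).symm)) ?_
    linear_combination e2 - (f u + f (f u)) * h7 u + f u * f (f u) * e1
  refine ⟨y, hy, z, hz, twS_le.2 ?_⟩
  rintro _ (⟨t, ht, r, hr, rfl⟩ | ⟨t, r, hr, rfl⟩)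
  · obtain ⟨h7, h8, h9⟩ := (by decide +kernel : ∀ r ∈ [14, 9], r < chevD4.nroots ∧ rhoD4 r = r ∧ r ∈ [14, 9, 18, 5]) r hr
    simpa using h.x_mem_of_Nm h7 h8 (a := a) (by simpa using ha) (by simp [h2]; ring) (h6 r h9) (hf t ▸ ht)
  · obtain ⟨h7, h8, h9⟩ := (by decide +kernel : ∀ r ∈ [(18, 13, 12), (5, 10, 11)], twT triD4 r.1 = (r.2.1, 1, 1) ∧
      twT triD4 r.2.1 = (r.2.2, 1, 1) ∧ r.1 ∈ [14, 9, 18, 5]) r hr
    simpa [Nm, hσ.map_one' h7, hσ.map_one' h8, hf, pow_two, pow_mul] using h6 _ h9 t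

end Cfsg.Agent.H7
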