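import Cfsg.Agent.H7.StW
import Cfsg.Agent.H1.CharInd

/-! The centre of a Hecke algebra `e ℂG e` and the constituents of a permutation character. -/

set_option autoImplicit false

namespace Cfsg.Agent.H7

open MonoidAlgebra Finset Module Matrix ComplexConjugate

section alg
variable {G : Type*} [Group G] [Fintype G]

/-- The element of the group algebra with given coefficients. -/
noncomputable def gel (f : G → ℂ) : MonoidAlgebra ℂ G := ∑ g, f g • of ℂ G g

theorem coeff_gel (f : G → ℂ) (g : G) : (gel f).coeff g = f g := by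
  classical
  simp [gel, coeff_sum, Finsupp.finset_sum_apply, Finsupp.single_apply]

theorem gel_coeff (a : MonoidAlgebra ℂ G) : gel (fun g => a.coeff g) = a := by
  ext g; rw [coeff_gel]

theorem coeff_mul_one' (a b : MonoidAlgebra ℂ G) (g : G) :
    (a * b).coeff g = ∑ x, a.coeff x * b.coeff (x⁻¹ * g) := by
  rw [coeff_mul_apply_left, Finsupp.sum_fintype _ _ (by simp)]

theorem tau_comm (a b : MonoidAlgebra ℂ G) : (a * b).coeff 1 = (b * a).coeff 1 := by
  rw [coeff_mul_one', coeff_mul_one', ← Equiv.sum_comp (Equiv.inv G)]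
  simp [mul_comm]

/-- Central elements. -/
def Ctr (z : MonoidAlgebra ℂ G) : Prop := ∀ h, of ℂ G h * z = z * of ℂ G h

theorem Ctr.comm {z : MonoidAlgebra ℂ G} (hz : Ctr z) (a : MonoidAlgebra ℂ G) : a * z = z * a := by
  rw [← gel_coeff a, gel, sum_mul, mul_sum]
  exact sum_congr rfl fun g _ => by rw [smul_mul_assoc, mul_smul_comm, hz]

omit [Fintype G] in
theorem Ctr.mul {z z' : MonoidAlgebra ℂ G} (hz : Ctr z) (hz' : Ctr z') : Ctr (z * z') := fun h => by
  rw [← mul_assoc, hz, mul_assoc, hz', mul_assoc]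

omit [Fintype G] in
theorem ctr_iff {z : MonoidAlgebra ℂ G} : Ctr z ↔ IsClassFunction G fun g => z.coeff g := by
  constructor
  · intro h g k
    have := congrArg (fun a => a.coeff (k * g)) (h k)
    simpa [MonoidAlgebra.of_apply, coeff_single_mul_apply, coeff_mul_single_apply] using this.symm
  · intro h k
    ext g
    have := h (k⁻¹ * g) k
    simpa [MonoidAlgebra.of_apply, coeff_single_mul_apply, coeff_mul_single_apply] using this.symm

/-- Sum of the conjugates. -/
noncomputable def gavg (a : MonoidAlgebra ℂ G) : MonoidAlgebra ℂ G := ∑ g, of ℂ G g * a * of ℂ G g⁻¹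

theorem ctr_gavg (a : MonoidAlgebra ℂ G) : Ctr (gavg a) := fun h => by
  rw [gavg, mul_sum, sum_mul, ← Equiv.sum_comp (Equiv.mulLeft h) (fun g => of ℂ G g * a * of ℂ G g⁻¹ * of ℂ G h)]
  refine sum_congr rfl fun g _ => ?_
  simp only [Equiv.coe_mulLeft, mul_assoc, ← map_mul, _root_.mul_inv_rev, inv_mul_cancel, mul_one]
  simp only [map_mul, mul_assoc]

theorem gavg_mul (a : MonoidAlgebra ℂ G) {z : MonoidAlgebra ℂ G} (hz : Ctr z) : gavg (a * z) = gavg a * z := by
  rw [gavg, gavg, sum_mul]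
  exact sum_congr rfl fun g _ => by simp only [mul_assoc, hz g⁻¹]

theorem coeff_gavg (a : MonoidAlgebra ℂ G) : (gavg a).coeff 1 = Nat.card G * a.coeff 1 := by
  have : ∀ g, (of ℂ G g * a * of ℂ G g⁻¹).coeff 1 = a.coeff 1 := fun g => by
    rw [tau_comm, ← mul_assoc, ← map_mul, inv_mul_cancel, map_one (of ℂ G), one_mul]
  rw [gavg, coeff_sum, Finsupp.finset_sum_apply, sum_congr rfl fun g _ => this g]
  simp

/-- The central idempotent of an irreducible character. -/
noncomputable def ceps (χ : G → ℂ) : MonoidAlgebra ℂ G := (χ 1 / Nat.card G) • gel fun g => χ g⁻¹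

theorem ctr_ceps (χ : IrrCharacter G) : Ctr (ceps χ.1) := by
  rw [ctr_iff]
  intro g h
  have := H1.IsCharacter.isClassFunction (H1.IsIrrCharacter.isCharacter χ.2) g⁻¹ h
  simp only [ceps, coeff_smul_apply, coeff_gel, _root_.mul_inv_rev, inv_inv, ← mul_assoc, this]

open Classical in
theorem ceps_mul (χ ψ : IrrCharacter G) : ceps χ.1 * ceps ψ.1 = if χ = ψ then ceps χ.1 else 0 := by
  ext g
  have h1 := H1.IsIrrCharacter.isCharacter χ.2
  have h2 := H1.IsIrrCharacter.isCharacter ψ.2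
  have h3 := H1.IsIrrCharacter.sum_mul_mul ψ.2 (H1.IsCharacter.isClassFunction (H1.IsCharacter.inv h1)) g⁻¹
  have h4 := H1.IsIrrCharacter.classInner_eq ψ.2 χ.2
  have h5 : ∑ x, χ.1 x⁻¹ * ψ.1 x = Nat.card G * classInner ψ.1 χ.1 := by
    rw [classInner, mul_inv_cancel_left₀ H1.card_ne_zero']
    exact sum_congr rfl fun x _ => by rw [H1.IsCharacter.apply_inv h1, mul_comm]
  have h6 := H1.IsIrrCharacter.one_ne_zero ψ.2
  have h7 := H1.card_ne_zero' (G := G)
  rw [ceps, ceps, smul_mul_smul_comm, coeff_smul_apply, coeff_mul_one']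
  simp only [coeff_gel, _root_.mul_inv_rev, inv_inv, H1.IsCharacter.mul_comm h2 g⁻¹, h3, h5, h4]
  by_cases e : χ = ψ
  · subst e
    simp only [if_true, coeff_smul_apply, coeff_gel, smul_eq_mul]
    field_simp
  · rw [if_neg e, if_neg fun h => e (Subtype.ext h.symm)]; simp

theorem Ctr.eq_sum {z : MonoidAlgebra ℂ G} (hz : Ctr z) : ∃ c : IrrCharacter G → ℂ, z = ∑ χ, c χ • ceps χ.1 := by
  have h : IsClassFunction G fun g => z.coeff g⁻¹ := fun g k => by
    have := ctr_iff.1 hz g⁻¹ k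
    simpa only [_root_.mul_inv_rev, inv_inv, ← mul_assoc] using this
  refine ⟨fun χ => classInner (fun g => z.coeff g⁻¹) χ.1 * (Nat.card G / χ.1 1), ?_⟩
  ext g
  have := congrFun (H1.IsClassFunction.eq_sum h) g⁻¹
  simp only [inv_inv, Finset.sum_apply, Pi.smul_apply, smul_eq_mul] at this
  rw [this, coeff_sum, Finsupp.finset_sum_apply]
  refine sum_congr rfl fun χ _ => ?_
  have h6 := H1.IsIrrCharacter.one_ne_zero χ.2
  have h7 := H1.card_ne_zero' (G := G)
  simp only [ceps, coeff_smul_apply, coeff_gel, smul_eq_mul]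
  field_simp

theorem sum_mul_ceps (c : IrrCharacter G → ℂ) (ψ : IrrCharacter G) :
    (∑ χ, c χ • ceps χ.1) * ceps ψ.1 = c ψ • ceps ψ.1 := by
  classical
  rw [sum_mul, sum_eq_single ψ (fun χ _ h => by rw [smul_mul_assoc, ceps_mul, if_neg h, smul_zero]) (by simp),
    smul_mul_assoc, ceps_mul, if_pos rfl]

theorem sum_ceps : ∑ χ : IrrCharacter G, ceps χ.1 = 1 := by
  obtain ⟨c, hc⟩ := Ctr.eq_sum (z := (1 : MonoidAlgebra ℂ G)) fun h => by simp
  rw [hc]
  exact sum_congr rfl fun χ _ => by rw [← sum_mul_ceps, ← hc, one_mul]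

theorem idem_eq_zero {a : MonoidAlgebra ℂ G} (h : a * a = a) (h0 : a.coeff 1 = 0) : a = 0 := by
  classical
  have : Module.Finite ℂ (MonoidAlgebra ℂ G) := Module.Finite.of_basis (MonoidAlgebra.basis G ℂ)
  have h1 : IsIdempotentElem (LinearMap.mulLeft ℂ a) := by
    ext1 b; ext; simp [← mul_assoc, h]
  have h2 := LinearMap.IsIdempotentElem.eq_zero_of_trace_eq_zero h1 (by
    rw [LinearMap.trace_eq_matrix_trace ℂ (MonoidAlgebra.basis G ℂ), Matrix.trace]
    refine sum_eq_zero fun g _ => ?_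
    rw [Matrix.diag_apply, LinearMap.toMatrix_apply]
    change (a * single g 1).coeff g = 0
    simp [coeff_mul_single_apply, h0])
  simpa using LinearMap.congr_fun h2 1

variable (B : Subgroup G)

open Classical in
/-- The idempotent of a subgroup. -/
noncomputable def eB : MonoidAlgebra ℂ G := (Nat.card B : ℂ)⁻¹ • ∑ b : B, of ℂ G b

variable {B} in
theorem of_mul_eB {b : G} (hb : b ∈ B) : of ℂ G b * eB B = eB B := by
  classical
  rw [eB, mul_smul_comm, mul_sum, ← Equiv.sum_comp (Equiv.mulLeft (⟨b, hb⟩ : B)) fun b : B => of ℂ G b]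
  simp only [← map_mul, Equiv.coe_mulLeft, Subgroup.coe_mul]

variable {B} in
theorem eB_mul_of {b : G} (hb : b ∈ B) : eB B * of ℂ G b = eB B := by
  classical
  rw [eB, smul_mul_assoc, sum_mul, ← Equiv.sum_comp (Equiv.mulRight (⟨b, hb⟩ : B)) fun b : B => of ℂ G b]
  simp only [← map_mul, Equiv.coe_mulRight, Subgroup.coe_mul]

theorem eB_mul_eB : eB B * eB B = eB B := by
  classical
  nth_rw 1 [eB]
  rw [smul_mul_assoc, sum_mul, sum_congr rfl fun b _ => of_mul_eB b.2, sum_const, card_univ,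
    ← Nat.cast_smul_eq_nsmul ℂ, smul_smul, ← Nat.card_eq_fintype_card, inv_mul_cancel₀ H1.card_ne_zero', one_smul]

/-- The normalised double coset sum. -/
noncomputable def tB (g : G) : MonoidAlgebra ℂ G := eB B * of ℂ G g * eB B

variable {B} in
theorem tB_mul {b b' : G} (hb : b ∈ B) (hb' : b' ∈ B) (g : G) : tB B (b * g * b') = tB B g := by
  rw [tB, tB, map_mul, map_mul, ← mul_assoc, ← mul_assoc, eB_mul_of hb, mul_assoc _ (of ℂ G b'), of_mul_eB hb']

theorem tB_one : tB B 1 = eB B := by rw [tB, map_one, mul_one, eB_mul_eB]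

theorem eB_mul_tB (g : G) : eB B * tB B g = tB B g := by simp only [tB, ← mul_assoc, eB_mul_eB]

theorem tB_mul_eB (g : G) : tB B g * eB B = tB B g := by simp only [tB, mul_assoc, eB_mul_eB]

open Classical in
theorem tB_mul_tB (g h : G) : tB B g * tB B h = (Nat.card B : ℂ)⁻¹ • ∑ b : B, tB B (g * b * h) := by
  have : tB B g * tB B h = eB B * of ℂ G g * eB B * (of ℂ G h * eB B) := by
    simp only [tB, mul_assoc]; rw [← mul_assoc (eB B) (eB B), eB_mul_eB]
  rw [this]
  nth_rw 2 [eB]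
  simp only [mul_smul_comm, smul_mul_assoc, mul_sum, sum_mul, tB, map_mul, mul_assoc]

theorem coeff_eB_ceps (χ : IrrCharacter G) :
    (eB B * ceps χ.1).coeff 1 = χ.1 1 / Nat.card G * conj (classInner (fixedPointCharacter B) χ.1) := by
  classical
  have h1 := H1.IsIrrCharacter.isCharacter χ.2
  have h7 := H1.card_ne_zero' (G := G)
  have h8 := H1.card_ne_zero' (G := B)
  have h2 : ∑ g, fixedPointCharacter B g * Nat.card B * conj (χ.1 g) = Nat.card G * ∑ b : B, conj (χ.1 b) := by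
    simp only [fpc_mul, card_filter, Nat.cast_sum, sum_mul]
    rw [sum_comm, Nat.card_eq_fintype_card (α := G), ← nsmul_eq_mul, ← card_univ, ← sum_const]
    refine sum_congr rfl fun y _ => ?_
    rw [← Equiv.sum_comp ((Equiv.mulLeft y).trans (Equiv.mulRight y⁻¹)), ← sum_subtype (p := (· ∈ B))
      (univ.filter (· ∈ B)) (by simp) (fun b => conj (χ.1 b)), sum_filter]
    refine sum_congr rfl fun g _ => ?_
    have := H1.IsCharacter.isClassFunction h1 g y
    simp only [Equiv.trans_apply, Equiv.coe_mulLeft, Equiv.coe_mulRight, this]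
    by_cases hg : g ∈ B <;> simp [hg, mul_assoc]
  have h3 : classInner (fixedPointCharacter B) χ.1 = (Nat.card B : ℂ)⁻¹ * ∑ b : B, conj (χ.1 b) := by
    have : ∑ g, fixedPointCharacter B g * conj (χ.1 g) = (Nat.card B : ℂ)⁻¹ * (Nat.card G * ∑ b : B, conj (χ.1 b)) := by
      rw [← h2, mul_sum]
      exact sum_congr rfl fun g _ => by field_simp
    rw [classInner, this]; field_simp
  rw [h3, eB, smul_mul_assoc, sum_mul, coeff_smul_apply, coeff_sum, Finsupp.finset_sum_apply]
  simp only [MonoidAlgebra.of_apply, coeff_single_mul_apply, ceps, coeff_smul_apply, coeff_gel, map_mul, map_sum,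
    Complex.conj_conj, map_inv₀, map_natCast, smul_eq_mul, mul_one, one_mul, inv_inv, ← mul_sum]
  ring

theorem eB_ceps_ne {χ : IrrCharacter G} :
    eB B * ceps χ.1 ≠ 0 ↔ ∃ φ : G → ℂ, IsCharacter G φ ∧ fixedPointCharacter B = χ.1 + φ := by
  have h0 : IsCharacter G (fixedPointCharacter B) := H1.isCharacter_fixedBy (G ⧸ B)
  have h1 := coeff_eB_ceps B χ
  constructor
  · intro h
    refine ⟨_, H1.IsCharacter.sub_irr h0 χ.2 fun e => h (idem_eq_zero ?_ ?_), by simp⟩
    · rw [mul_assoc, ← mul_assoc (ceps _), ← (ctr_ceps χ).comm, mul_assoc, ← mul_assoc, eB_mul_eB, ceps_mul, if_pos rfl]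
    · rw [h1, e, map_zero, mul_zero]
  · rintro ⟨φ, hφ, e⟩ h
    obtain ⟨n, hn⟩ := H1.IsCharacter.classInner_nat hφ (H1.IsIrrCharacter.isCharacter χ.2)
    rw [h, e, H1.classInner_add_left, H1.IsIrrCharacter.classInner_self χ.2, hn] at h1
    have h2 : ((1 + n : ℕ) : ℂ) ≠ 0 := Nat.cast_ne_zero.2 (by omega)
    have h3 := div_ne_zero (H1.IsIrrCharacter.one_ne_zero χ.2) (H1.card_ne_zero' (G := G))
    exact mul_ne_zero h3 h2 (by simpa using h1.symm)

/-- The centre of the Hecke algebra. -/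
noncomputable def ZB : Submodule ℂ (MonoidAlgebra ℂ G) :=
  Submodule.span ℂ (Set.range fun χ : {χ : IrrCharacter G // eB B * ceps χ.1 ≠ 0} => eB B * ceps χ.1.1)

theorem finrank_ZB : finrank ℂ (ZB B) =
    Nat.card {χ : IrrCharacter G // ∃ φ : G → ℂ, IsCharacter G φ ∧ fixedPointCharacter B = χ.1 + φ} := by
  classical
  rw [ZB, finrank_span_eq_card, ← Nat.card_eq_fintype_card]
  · exact Nat.card_congr (Equiv.subtypeEquivRight fun χ => eB_ceps_ne B)
  · refine Fintype.linearIndependent_iff.2 fun c hc ψ => ?_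
    have := congrArg (· * ceps ψ.1.1) hc
    simp only [sum_mul, zero_mul, smul_mul_assoc, mul_assoc, ceps_mul] at this
    rw [sum_eq_single ψ (fun χ _ h => by rw [if_neg fun e => h (Subtype.ext e), mul_zero, smul_zero]) (by simp),
      if_pos rfl] at this
    exact (smul_eq_zero.1 this).resolve_right ψ.2

theorem Ctr.mem_ZB {z : MonoidAlgebra ℂ G} (hz : Ctr z) : eB B * z ∈ ZB B := by
  obtain ⟨c, rfl⟩ := hz.eq_sum
  rw [mul_sum]
  refine Submodule.sum_mem _ fun χ _ => ?_
  rw [mul_smul_comm]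
  refine Submodule.smul_mem _ _ ?_
  by_cases h : eB B * ceps χ.1 = 0
  · rw [h]; exact zero_mem _
  · exact Submodule.subset_span ⟨⟨χ, h⟩, rfl⟩

theorem exists_gavg_eB : ∃ c : IrrCharacter G → ℂ, (∀ χ, gavg (eB B) * ceps χ.1 = c χ • ceps χ.1) ∧
    ∀ χ, eB B * ceps χ.1 ≠ 0 → c χ ≠ 0 := by
  classical
  obtain ⟨c, hc⟩ := (ctr_gavg (eB B)).eq_sum
  have h1 : ∀ χ, gavg (eB B) * ceps χ.1 = c χ • ceps χ.1 := fun χ => by rw [hc, sum_mul_ceps]
  refine ⟨c, h1, fun χ h e => h (idem_eq_zero ?_ ?_)⟩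
  · rw [mul_assoc, ← mul_assoc (ceps _), ← (ctr_ceps χ).comm, mul_assoc, ← mul_assoc, eB_mul_eB, ceps_mul, if_pos rfl]
  · have := coeff_gavg (eB B * ceps χ.1)
    rw [gavg_mul _ (ctr_ceps χ), h1, e, zero_smul] at this
    exact (mul_eq_zero.1 this.symm).resolve_left H1.card_ne_zero'

theorem eB_gavg {a : MonoidAlgebra ℂ G} (h1 : eB B * a = a) (h2 : a * eB B = a) :
    eB B * gavg a = ∑ g, tB B g * a * tB B g⁻¹ := by
  rw [← eB_mul_eB, mul_assoc, (ctr_gavg a).comm, gavg, sum_mul, mul_sum]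
  refine sum_congr rfl fun g _ => ?_
  simp only [tB, mul_assoc]
  rw [← mul_assoc a (eB B), h2, ← mul_assoc (eB B) a, h1]

theorem mem_ZB_of_comm {a : MonoidAlgebra ℂ G} (h1 : eB B * a = a) (h2 : a * eB B = a)
    (h : ∀ g, tB B g * a = a * tB B g) : a ∈ ZB B := by
  classical
  obtain ⟨c, hc, hc'⟩ := exists_gavg_eB B
  have h3 : eB B * gavg a = a * gavg (eB B) := by
    rw [← h2, mul_assoc a, eB_gavg B (eB_mul_eB B) (eB_mul_eB B), h2, eB_gavg B h1 h2, mul_sum]
    refine sum_congr rfl fun g _ => ?_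
    rw [h, mul_assoc, tB_mul_eB]
  have h4 : a = ∑ χ : IrrCharacter G, (c χ)⁻¹ • (eB B * (gavg a * ceps χ.1)) := by
    conv_lhs => rw [← mul_one a, ← sum_ceps, mul_sum]
    refine sum_congr rfl fun χ _ => ?_
    rw [← mul_assoc, h3, mul_assoc, hc, mul_smul_comm, smul_smul]
    by_cases e : eB B * ceps χ.1 = 0
    · rw [← h2, mul_assoc, e, mul_zero, smul_zero]
    · rw [inv_mul_cancel₀ (hc' χ e), one_smul]
  rw [h4]
  exact Submodule.sum_mem _ fun χ _ => Submodule.smul_mem _ _ (((ctr_gavg a).mul (ctr_ceps χ)).mem_ZB B)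

/-- The commutator matrix of a family of structure constants. -/
def heD {W : Type*} (m : W → W → W → ℂ) : Matrix (W × W) W ℂ := fun p a => m p.1 a p.2 - m a p.1 p.2

/-- The averaging matrix of a family of structure constants. -/
def heP {W : Type*} [Fintype W] (m : W → W → W → ℂ) (κ : W → ℂ) (iv : W → W) : Matrix W W ℂ :=
  fun x a => ∑ w, κ w * ∑ y, m w a y * m y (iv w) x

theorem hecke_rank {W : Type*} [Fintype W] [DecidableEq W] (n : W → G) (cell : G → W)
    (h1 : ∀ g, tB B g = tB B (n (cell g))) (h2 : LinearIndependent ℂ fun w => tB B (n w))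
    (m : W → W → W → ℂ) (hm : ∀ u v, tB B (n u) * tB B (n v) = ∑ w, m u v w • tB B (n w))
    (κ : W → ℂ) {K : ℂ} (hK : K ≠ 0) (hκ : ∀ w, κ w = K * #{g | cell g = w})
    (iv : W → W) (hiv : ∀ g, cell g⁻¹ = iv (cell g)) :
    (heD m).rank + finrank ℂ (ZB B) = Fintype.card W ∧ (heP m κ iv).rank = finrank ℂ (ZB B) := by
  let ι := Fintype.linearCombination ℂ fun w => tB B (n w)
  have ιa : ∀ a, ι a = ∑ w, a w • tB B (n w) := fun a => Fintype.linearCombination_apply ..
  have hι : Function.Injective ι := h2.fintypeLinearCombination_injective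
  have e1 : ∀ a, eB B * ι a = ι a := fun a => by
    simp only [ιa, mul_sum, mul_smul_comm, tB, ← mul_assoc, eB_mul_eB]
  have e2 : ∀ a, ι a * eB B = ι a := fun a => by
    simp only [ιa, sum_mul, smul_mul_assoc, tB, mul_assoc, eB_mul_eB]
  have e3 : ∀ χ : IrrCharacter G, ∃ a, ι a = eB B * ceps χ.1 := fun χ => by
    have : eB B * ceps χ.1 = eB B * ceps χ.1 * eB B := by
      rw [mul_assoc, ← (ctr_ceps χ).comm, ← mul_assoc, eB_mul_eB]
    rw [this, ← gel_coeff (ceps χ.1), gel, mul_sum, sum_mul]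
    refine LinearMap.mem_range.1 (Submodule.sum_mem _ fun g _ => ?_)
    rw [mul_smul_comm, smul_mul_assoc]
    exact Submodule.smul_mem _ _ ⟨Pi.single (cell g) 1, by rw [Fintype.linearCombination_apply_single, one_smul, ← h1]; rfl⟩
  have eD : ∀ a w, ι (fun x => (heD m *ᵥ a) (w, x)) = tB B (n w) * ι a - ι a * tB B (n w) := fun a w => by
    simp only [ιa, mul_sum, sum_mul, mul_smul_comm, smul_mul_assoc, hm, mulVec, dotProduct, heD, sum_smul,
      ← sum_sub_distrib, smul_sum, smul_smul, ← sub_smul]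
    rw [sum_comm]
    exact sum_congr rfl fun _ _ => sum_congr rfl fun _ _ => by congr 1; ring
  have eP : ∀ a, ι (heP m κ iv *ᵥ a) = K • (eB B * gavg (ι a)) := fun a => by
    have : ∑ g, tB B g * ι a * tB B g⁻¹ = ∑ w, (#{g | cell g = w} : ℂ) • (tB B (n w) * ι a * tB B (n (iv w))) := by
      rw [← sum_fiberwise univ cell]
      refine sum_congr rfl fun w _ => ?_
      rw [sum_congr rfl fun g hg => by rw [h1 g, h1 g⁻¹, hiv, (mem_filter.1 hg).2], sum_const, Nat.cast_smul_eq_nsmul]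
    rw [eB_gavg B (e1 a) (e2 a), this]
    simp only [ιa, mul_sum, sum_mul, mul_smul_comm, smul_mul_assoc, hm, mulVec, dotProduct, heP, sum_smul,
      smul_sum, smul_smul, hκ]
    conv_lhs => rw [sum_comm]; enter [2, a]; rw [sum_comm]; enter [2, w]; rw [sum_comm]
    rw [sum_comm]
    exact sum_congr rfl fun _ _ => sum_congr rfl fun _ _ => sum_congr rfl fun _ _ => sum_congr rfl fun _ _ => by
      congr 1; ring
  have kD : ∀ a, heD m *ᵥ a = 0 ↔ ∀ w, tB B (n w) * ι a = ι a * tB B (n w) := fun a =>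
    ⟨fun h w => by rw [← sub_eq_zero, ← eD, h]; exact map_zero ι, fun h => funext fun p =>
      congrFun (hι ((eD a p.1).trans ((sub_eq_zero.2 (h p.1)).trans (map_zero ι).symm))) p.2⟩
  have z1 : (LinearMap.ker (heD m).mulVecLin).map ι = ZB B := by
    refine le_antisymm ?_ (Submodule.span_le.2 ?_)
    · rintro _ ⟨a, ha, rfl⟩
      exact mem_ZB_of_comm B (e1 a) (e2 a) fun g => by rw [h1]; exact (kD a).1 ha _
    · rintro _ ⟨χ, rfl⟩
      obtain ⟨a, ha⟩ := e3 χ.1
      refine ⟨a, (kD a).2 fun w => ?_, ha⟩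
      rw [ha, mul_assoc (eB B), ← (ctr_ceps χ.1).comm, ← mul_assoc, ← mul_assoc, tB_mul_eB, eB_mul_tB]
  have z2 : (LinearMap.range (heP m κ iv).mulVecLin).map ι = ZB B := by
    refine le_antisymm ?_ (Submodule.span_le.2 ?_)
    · rintro _ ⟨_, ⟨a, rfl⟩, rfl⟩
      rw [mulVecLin_apply, eP]
      exact Submodule.smul_mem _ _ ((ctr_gavg _).mem_ZB B)
    · rintro _ ⟨χ, rfl⟩
      obtain ⟨a, ha⟩ := e3 χ.1
      obtain ⟨c, hc, hc'⟩ := exists_gavg_eB B
      refine ⟨_, ⟨(K * c χ.1)⁻¹ • a, rfl⟩, ?_⟩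
      rw [map_smul, map_smul, mulVecLin_apply, eP, ha, gavg_mul _ (ctr_ceps _), hc, mul_smul_comm, smul_smul, smul_smul,
        mul_assoc, inv_mul_cancel₀ (mul_ne_zero hK (hc' _ χ.2)), one_smul]
  constructor
  · rw [← z1, LinearEquiv.finrank_eq (Submodule.equivMapOfInjective ι hι _).symm, Matrix.rank,
      LinearMap.finrank_range_add_finrank_ker, finrank_fintype_fun_eq_card]
  · rw [← z2, LinearEquiv.finrank_eq (Submodule.equivMapOfInjective ι hι _).symm, Matrix.rank]

end alg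

end Cfsg.Agent.H7
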