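import Cfsg.Agent.H7.Hecke
import Cfsg.Agent.H7.StMore

/-! The number of constituents of the principal series is the number of classes of the Weyl group. -/

set_option autoImplicit false

namespace Cfsg.Agent.H7

open MonoidAlgebra Finset Module Matrix Polynomial Cfsg.Lie Cfsg.Agent.H8

theorem finite_rank_lt {a b : Type*} [Fintype a] [Fintype b] (M : ℂ → Matrix a b ℂ)
    (h : ∀ i j, ∃ p : ℂ[X], ∀ y, M y i j = p.eval y) (c : ℂ) : {y | (M y).rank < (M c).rank}.Finite := by
  classical
  choose P hP using h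
  let e := Module.finBasis ℂ (LinearMap.range (M c).mulVecLin)
  choose v hv using fun i => (e i).2
  obtain ⟨g, hg⟩ := (LinearMap.range (M c).mulVecLin).subtype.exists_leftInverse_of_injective (Submodule.ker_subtype _)
  let A := LinearMap.toMatrix' (e.equivFun.toLinearMap ∘ₗ g)
  let B : Matrix b (Fin (finrank ℂ (LinearMap.range (M c).mulVecLin))) ℂ := Matrix.of fun j i => v i j
  have h1 : A * M c * B = 1 := by
    ext i j
    have : (M c * B) *ᵥ Pi.single j 1 = (e j).1 := by rw [← hv j, ← mulVec_mulVec, mulVec_single_one]; rfl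
    have h2 := congrFun (congrArg (A *ᵥ ·) this) i
    have h3 : g (e j).1 = e j := LinearMap.congr_fun hg (e j)
    simp only [mulVec_mulVec] at h2
    rw [← Matrix.mul_assoc, mulVec_single_one, col_apply] at h2
    rw [h2]
    simp [A, h3, one_apply, Finsupp.single_apply, eq_comm]
  have h2 : ∀ y, (A.map C * Matrix.of P * B.map C).det.eval y = (A * M y * B).det := fun y => by
    rw [← coe_evalRingHom, RingHom.map_det, RingHom.mapMatrix_apply, Matrix.map_mul, Matrix.map_mul]
    congr 3 <;> ext <;> simp [hP]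
  have h3 : (A.map C * Matrix.of P * B.map C).det ≠ 0 := fun e => by simpa [e, h1] using h2 c
  refine (finite_setOf_isRoot h3).subset fun y hy => ?_
  by_contra h4
  have h5 := rank_of_isUnit (A * M y * B) ((isUnit_iff_isUnit_det _).2 (by rw [← h2]; exact Ne.isUnit h4))
  have h6 := (rank_mul_le_left (A * M y) B).trans (rank_mul_le_right A (M y))
  rw [h5, Fintype.card_fin] at h6
  exact absurd hy (not_lt.2 h6)

section cells
variable {G : Type*} [Group G] [Fintype G] {B : Subgroup G} {W : Type*} [DecidableEq W] {n : W → G} {cell : G → W}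

theorem tB_indep (h : ∀ b ∈ B, ∀ b' ∈ B, ∀ w, cell (b * n w * b') = w) : LinearIndependent ℂ fun w => tB B (n w) := by
  classical
  let φ : W → MonoidAlgebra ℂ G →ₗ[ℂ] ℂ := fun w => (MonoidAlgebra.basis G ℂ).constr ℂ fun g => if cell g = w then 1 else 0
  have h1 : ∀ w g, φ w (of ℂ G g) = if cell g = w then 1 else 0 := fun w g => (MonoidAlgebra.basis G ℂ).constr_basis ℂ _ g
  have h2 : ∀ w v, φ w (tB B (n v)) = if v = w then 1 else 0 := fun w v => by
    have h8 := H1.card_ne_zero' (G := B)
    simp only [tB, eB, smul_mul_assoc, mul_smul_comm, sum_mul, mul_sum, ← map_mul, map_smul, map_sum, h1,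
      h _ (Subtype.prop _) _ (Subtype.prop _), sum_const, card_univ, ← Nat.card_eq_fintype_card, smul_eq_mul, nsmul_eq_mul]
    field_simp
  refine linearIndependent_iff'.2 fun s c hc w hw => ?_
  simpa [h2, hw] using congrArg (φ w) hc

theorem card_smul_tB (S : Finset G) (hS : ∀ x ∈ S, ∀ b ∈ B, x * b ∈ S) {g : G} (hg : ∀ x ∈ S, tB B x = tB B g) (h : G) :
    (S.card : ℂ) • (tB B g * tB B h) = ∑ x ∈ S, tB B (x * h) := by
  classical
  have h1 : (∑ x ∈ S, of ℂ G x) * eB B = ∑ x ∈ S, of ℂ G x := by
    have : ∀ b : B, (∑ x ∈ S, of ℂ G x) * of ℂ G b = ∑ x ∈ S, of ℂ G x := fun b => by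
      rw [sum_mul]
      exact sum_nbij' (· * b) (· * b⁻¹) (fun x hx => hS x hx _ b.2) (fun x hx => hS x hx _ (inv_mem b.2)) (by simp) (by simp)
        fun x _ => (map_mul _ _ _).symm
    rw [eB, mul_smul_comm, mul_sum, sum_congr rfl fun b _ => this b, sum_const, card_univ,
      ← Nat.cast_smul_eq_nsmul ℂ, smul_smul, ← Nat.card_eq_fintype_card, inv_mul_cancel₀ H1.card_ne_zero', one_smul]
  have h2 : ∑ x ∈ S, tB B x = eB B * ∑ x ∈ S, of ℂ G x := by
    conv_rhs => rw [← h1, ← mul_assoc, mul_sum, sum_mul]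
    rfl
  rw [← smul_mul_assoc, Nat.cast_smul_eq_nsmul, ← sum_const, ← sum_congr rfl hg, h2, tB, ← mul_assoc, ← mul_assoc,
    mul_assoc (eB B), h1, mul_sum, sum_mul, sum_mul]
  simp only [tB, map_mul, mul_assoc]

end cells

variable {D : ChevalleyDatum} [hD : RootFacts D]

open Classical in
variable (D) in
/-- Structure constants of the Hecke algebra, with `y` the inverse of the parameter. -/
noncomputable def heM (y : ℂ) : List (Fin D.rank) → W D → W D → ℂ
  | [], v, z => if v = z then 1 else 0
  | i :: l, v, z => ∑ w ∈ (Set.toFinite (Set.univ : Set (W D))).toFinset, heM y l v w *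
      if D.IsPosRoot (w.1⁻¹ (D.simple i)) then (if sref D i * w = z then 1 else 0)
      else y * (if sref D i * w = z then 1 else 0) + (1 - y) * if w = z then 1 else 0

theorem heM_pol (l : List (Fin D.rank)) (v z : W D) : ∃ p : ℂ[X], ∀ y, heM D y l v z = p.eval y := by
  classical
  induction l generalizing z with
  | nil => exact ⟨C (if v = z then 1 else 0), fun y => by rw [eval_C, heM]⟩
  | cons i l ih =>
    choose p hp using ih
    refine ⟨∑ w ∈ (Set.toFinite (Set.univ : Set (W D))).toFinset, p w *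
      if D.IsPosRoot (w.1⁻¹ (D.simple i)) then C (if sref D i * w = z then 1 else 0)
      else X * C (if sref D i * w = z then 1 else 0) + (1 - X) * C (if w = z then 1 else 0), fun y => ?_⟩
    rw [heM, eval_finset_sum]
    refine sum_congr rfl fun w _ => ?_
    rw [eval_mul, hp]
    split_ifs <;> simp

open Classical in
theorem heM_one (l : List (Fin D.rank)) (v z : W D) : heM D 1 l v z = if wordW D l * v = z then 1 else 0 := by
  induction l generalizing z with
  | nil => simp [heM]
  | cons i l ih =>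
    rw [heM, sum_eq_single ⟨wordW D l * v, mul_mem (wordW_mem l) v.2⟩ (fun w _ h => by
      rw [ih, if_neg fun e => h (Subtype.ext e.symm), zero_mul]) (by simp), ih, if_pos rfl, wordW_cons, mul_assoc]
    simp

variable (D) in
/-- A reduced word. -/
noncomputable def redW (u : W D) : List (Fin D.rank) := (exists_reduced u.2).choose

variable (D) in
/-- The commutator matrix of the Hecke algebra. -/
noncomputable def hekD (y : ℂ) : Matrix (W D × W D) (W D) ℂ := heD fun u => heM D y (redW D u)

variable (D) in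
/-- The averaging matrix of the Hecke algebra. -/
noncomputable def hekP [Fintype (W D)] (y : ℂ) : Matrix (W D) (W D) ℂ :=
  heP (fun u => heM D y (redW D u)) (fun w => y ^ (D.nroots - len D w)) (·⁻¹)

theorem hek_one [Fintype (W D)] : (hekD D 1).rank + Nat.card (ConjClasses (W D)) = Fintype.card (W D) ∧
    (hekP D 1).rank = Nat.card (ConjClasses (W D)) := by
  classical
  have h0 : eB (⊥ : Subgroup (W D)) = 1 := by
    rw [eB, sum_eq_single 1 (fun b _ h => (h (Subsingleton.elim _ _)).elim) (fun h => (h (by simp only [mem_univ])).elim), Subgroup.card_bot, OneMemClass.coe_one, map_one]; simp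
  have h1 : ∀ g, tB (⊥ : Subgroup (W D)) g = of ℂ _ g := fun g => by rw [tB, h0, one_mul, mul_one]
  have h2 : finrank ℂ (ZB (⊥ : Subgroup (W D))) = Nat.card (ConjClasses (W D)) := by
    rw [finrank_ZB, ← H1.card_irr_eq_card_conjClasses]
    refine Nat.card_congr (Equiv.subtypeUnivEquiv fun χ => (eB_ceps_ne ⊥).1 fun e => ?_)
    have := congrArg (fun a => a.coeff 1) e
    have h6 := H1.IsIrrCharacter.one_ne_zero χ.2
    simp [h0, ceps, coeff_gel, h6] at this
  rw [← h2]
  refine hecke_rank ⊥ id id (fun _ => rfl) (tB_indep (cell := id) (by simp +contextual)) _ (fun u v => ?_) _ one_ne_zero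
    (fun w => by simp [filter_eq']) _ fun _ => rfl
  simp only [h1, id, heM_one, redW, (exists_reduced u.2).choose_spec.1, ← map_mul, ← Subgroup.coe_mul, Subtype.coe_inj]
  simp

variable {K : Type*} [Field K] [Finite K] {G : Type*} [Group G] [Fintype G] [hN : NFacts D] {x : ℕ → K → G}

theorem IsFaith.hek (hx : IsFaith D x) (hG : GG x = ⊤) [Fintype (W D)] :
    (hekD D (Nat.card K : ℂ)⁻¹).rank + finrank ℂ (ZB (BB D x)) = Fintype.card (W D) ∧
    (hekP D (Nat.card K : ℂ)⁻¹).rank = finrank ℂ (ZB (BB D x)) := by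
  classical
  have hs := hx.toIsSt
  choose n hn using fun w : W D => NRep.exists_rep x w.2
  choose c hc0 hc using fun g : G => hs.exists_cell (hG ▸ Subgroup.mem_top g)
  let cell : G → W D := fun g => ⟨c g, hc0 g⟩
  have hcell : ∀ {g} {w : W D}, cell g = w ↔ g ∈ Cell D x w :=
    ⟨fun h => h ▸ hc _, fun h => Subtype.ext (hx.cell_unique (hc _) h)⟩
  have ht : ∀ {g} {w : W D}, g ∈ Cell D x w → tB (BB D x) g = tB (BB D x) (n w) := fun {g w} h => by
    obtain ⟨b, hb, b', hb', rfl⟩ := (hs.mem_cell_iff (hn w)).1 h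
    exact tB_mul hb hb' _
  have hq := card_ne (A := K)
  have hB := H1.card_ne_zero' (G := BB D x)
  have hcard : ∀ w : W D, (#{g | cell g = w} : ℂ) = Nat.card (BB D x) * Nat.card K ^ len D w := fun w => by
    rw [← Nat.cast_pow, ← Nat.cast_mul, ← hx.card_cell w.2, ← Fintype.card_subtype, ← Nat.card_eq_fintype_card]
    exact congrArg _ (Nat.card_congr (Equiv.subtypeEquivRight fun _ => hcell))
  let s : Fin D.rank → W D := fun i => ⟨sref D i, sref_mem i⟩
  have hp : ∀ (i : Fin D.rank) (w : W D), D.IsPosRoot (w.1⁻¹ (D.simple i)) →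
      tB (BB D x) (n (s i)) * tB (BB D x) (n w) = tB (BB D x) (n (s i * w)) := fun i w h => by
    rw [tB_mul_tB, sum_congr rfl fun b _ => ht (w := s i * w)
      (hs.cell_sref_mul_of_pos (Cell.mul_right (hn (s i)).mem_cell b.2) (hn w).mem_cell h), sum_const, card_univ,
      ← Nat.cast_smul_eq_nsmul ℂ, smul_smul, ← Nat.card_eq_fintype_card, inv_mul_cancel₀ hB, one_smul]
  have hss : ∀ i, tB (BB D x) (n (s i)) * tB (BB D x) (n (s i)) =
      (Nat.card K : ℂ)⁻¹ • eB (BB D x) + (1 - (Nat.card K : ℂ)⁻¹) • tB (BB D x) (n (s i)) := fun i => by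
    have h1 := card_smul_tB (B := BB D x) {g | cell g = s i} (fun g hg b hb => by
      simpa [hcell] using Cell.mul_right (by simpa [hcell] using hg) hb) (g := n (s i))
      (fun g hg => ht (by simpa [hcell] using hg)) (n (s i))
    have h2 : #{g ∈ ({g | cell g = s i} : Finset G) | g * n (s i) ∈ BB D x} = Nat.card (BB D x) := by
      rw [← card_filter_mem]
      refine card_nbij' (· * n (s i)) (· * (n (s i))⁻¹) (fun g hg => by simpa using (mem_filter.1 hg).2) (fun g hg => ?_)
        (fun _ _ => by simp) fun _ _ => by simp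
      have hg : g ∈ BB D x := by simpa using hg
      have := Cell.mul_left (hs.cell_inv (hn (s i)).mem_cell) hg
      simpa [hcell, hg, s, sref_inv] using this
    have h3 := congrArg (Nat.cast (R := ℂ))
      (card_filter_add_card_filter_not (s := ({g | cell g = s i} : Finset G)) (fun g => g * n (s i) ∈ BB D x))
    rw [Nat.cast_add] at h3
    rw [← sum_filter_add_sum_filter_not _ (fun g => g * n (s i) ∈ BB D x),
      sum_congr rfl fun g hg => (by simpa using tB_mul (mem_filter.1 hg).2 (one_mem _) 1 : _ = tB (BB D x) 1),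
      sum_congr rfl fun g hg => ht (w := s i) ((hs.cell_sref_mul (hcell.1 (mem_filter.1 (mem_filter.1 hg).1).2)
        (hn (s i)).mem_cell).elim (fun h => ((mem_filter.1 hg).2 (hs.mem_cell_one.1 (sref_mul_self i ▸ h))).elim) (·.1)),
      sum_const, sum_const, h2, tB_one, ← Nat.cast_smul_eq_nsmul ℂ, ← Nat.cast_smul_eq_nsmul ℂ,
      eq_sub_of_add_eq' h3, h2, hcard, len_sref, pow_one] at h1
    refine smul_right_injective _ (mul_ne_zero hB hq) (h1.trans ?_)
    simp only [smul_add, smul_smul]
    congr 2 <;> field_simp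
  have hm : ∀ l (hl : len D (wordW D l) = l.length) v, tB (BB D x) (n ⟨_, wordW_mem l⟩) * tB (BB D x) (n v) =
      ∑ w, heM D (Nat.card K : ℂ)⁻¹ l v w • tB (BB D x) (n w) := fun l hl v => by
    induction l with
    | nil => rw [← ht (g := 1) (Cell.of_mem_BB (one_mem _)), tB_one, eB_mul_tB]; simp [heM]
    | cons i l ih =>
      have h1 := len_wordW_le l
      rw [wordW_cons, List.length_cons] at hl
      have h2 : D.IsPosRoot ((wordW D l)⁻¹ (D.simple i)) :=
        (pos_or_neg (W_lt (inv_mem (wordW_mem l)) (simple_lt i))).resolve_right fun h => by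
          have := len_sref_mul_of_neg (wordW_mem l) h; omega
      have h3 := len_sref_mul_of_pos (wordW_mem l) h2
      have h4 : (⟨_, wordW_mem (i :: l)⟩ : W D) = s i * ⟨_, wordW_mem l⟩ := Subtype.ext (wordW_cons i l)
      rw [h4, ← hp i _ h2, mul_assoc, ih (by omega), mul_sum]
      simp only [heM, sum_smul, Set.Finite.toFinset_univ]
      rw [sum_comm]
      refine sum_congr rfl fun w _ => ?_
      have e : ∀ z : W D, sref D i * w = z ↔ s i * w = z := fun z => by rw [← Subtype.coe_inj]; rfl
      simp only [mul_smul_comm, mul_smul, ← smul_sum, e]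
      congr 1
      split_ifs with h
      · simp [hp i w h]
      · have h5 : s i * (s i * w) = w := Subtype.ext (by simp [s, ← mul_assoc, sref_mul_self])
        have h6 := hp i (s i * w) (by
          simpa [s, sref_inv] using mul_sref_pos_of_neg (inv_mem w.2)
            ((pos_or_neg (W_lt (inv_mem w.2) (simple_lt i))).resolve_left h))
        rw [h5] at h6
        conv_lhs => rw [← h6, ← mul_assoc, hss, add_mul, smul_mul_assoc, smul_mul_assoc, eB_mul_tB, h6]
        simp [add_smul, sum_add_distrib, mul_smul, ← smul_sum]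
  refine hecke_rank _ n cell (fun g => ht (hc g))
    (tB_indep (cell := cell) fun b hb b' hb' w => hcell.2 (Cell.mul_right (Cell.mul_left (hn w).mem_cell hb) hb')) _
    (fun u v => ?_) _ (K := (Nat.card K : ℂ)⁻¹ ^ D.nroots / Nat.card (BB D x)) (by positivity) (fun w => ?_) _
    fun g => hcell.2 (hs.cell_inv (hc g))
  · have := (exists_reduced u.2).choose_spec
    rw [← hm (redW D u) (by rw [redW, this.1, this.2])]
    congr; exact Subtype.ext this.1.symm
  · have : len D w ≤ D.nroots := (card_filter_le _ _).trans (card_range _).le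
    rw [hcard, pow_sub₀ _ (inv_ne_zero hq) this, inv_pow _ (len D w), inv_inv]; field_simp

theorem IsFaith.card_constit (hx : IsFaith D x) (hG : GG x = ⊤) [MatFacts D] [ChainFacts D] :
    Nat.card {χ : IrrCharacter G // ∃ φ : G → ℂ, IsCharacter G φ ∧ fixedPointCharacter (BB D x) = χ.1 + φ} =
      Nat.card (ConjClasses (W D)) := by
  classical
  have := Fintype.ofFinite (W D)
  choose m hm using heM_pol (D := D)
  have f1 := finite_rank_lt (hekD D) fun p a => ⟨m (redW D p.1) a p.2 - m (redW D a) p.1 p.2, fun y => by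
    simp [hekD, heD, hm]⟩
  have f2 := finite_rank_lt (hekP D) fun z a => ⟨∑ w : W D, X ^ (D.nroots - len D w) *
      ∑ v, m (redW D w) a v * m (redW D v) w⁻¹ z, fun y => by simp [hekP, heP, hm, eval_finset_sum]⟩
  obtain ⟨_, ⟨p, hp, rfl⟩, h⟩ := (Nat.infinite_setOf_prime.image (f := fun p : ℕ => (p : ℂ)⁻¹)
    fun _ _ _ _ h => Nat.cast_injective (inv_injective h)).exists_notMem_finite
    (((f1 1).union (f2 1)).union ((f1 (Nat.card K : ℂ)⁻¹).union (f2 (Nat.card K : ℂ)⁻¹)))
  have : Fact p.Prime := ⟨hp⟩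
  have := (H7.isChev_xg (D := D) (F := ZMod p)).finite_G H7.GG_xg
  have := Fintype.ofFinite (D.group (ZMod p))
  have h1 := (H7.isChev_xg (D := D) (F := ZMod p)).toIsFaith.hek H7.GG_xg
  have h2 := hx.hek hG
  have h3 := hek_one (D := D)
  simp only [Set.mem_union, Set.mem_setOf_eq, not_or, not_lt] at h
  rw [Nat.card_zmod] at h1
  rw [← finrank_ZB]
  omega

end Cfsg.Agent.H7
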